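import Mathlib
import Cfsg.Agent.Elu.Uni
import Cfsg.Prelude.Def_GeometricClasses

/-!
Elements of prime order of `PSL_n(q)` that are conjugate into a given subgroup.
-/

set_option autoImplicit false
set_option backward.isDefEq.respectTransparency false

namespace Cfsg.Agent.Elv

open Module Polynomial Conj Spc Elu Matrix
open scoped _root_.Classical MatrixGroups

variable {F : Type*} [Field F] {V W : Type*} [AddCommGroup V] [Module F V] [AddCommGroup W]
  [Module F W] {ι : Type} [Fintype ι] [DecidableEq ι] {H : Subgroup (GL ι F)} {f : End F V}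
  {g : End F W} {r n : ℕ} {c : F}

/-- similar to an element of `H` -/
def Cj (H : Subgroup (GL ι F)) (f : End F V) : Prop := ∃ h ∈ H, Sim f (toLin' h.1)

/-- the centraliser has all determinants -/
def Fd (f : End F V) : Prop := ∀ d : F, d ≠ 0 → ∃ c : End F V, c * f = f * c ∧ LinearMap.det c = d

theorem Cj.sim (h : Cj H g) (e : Sim f g) : Cj H f := h.imp fun _ h => ⟨h.1, e.trans h.2⟩

theorem cj_iff (P : End F (ι → F) → Prop) (hP : ∀ g : GL ι F, g ∈ H ↔ P (toLin' g.1))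
    (hf : LinearMap.det f ≠ 0) : Cj H f ↔ ∃ h, P h ∧ Sim f h := by
  refine ⟨fun ⟨h, h1, h2⟩ => ⟨_, (hP h).1 h1, h2⟩, fun ⟨h, h1, h2⟩ => ?_⟩
  obtain ⟨A, rfl⟩ := (toLin' (R := F) (m := ι) (n := ι)).surjective h
  rw [h2.det_eq, LinearMap.det_toLin'] at hf
  exact ⟨GeneralLinearGroup.mkOfDetNeZero A hf, (hP _).2 h1, h2⟩

theorem range_toGL : (SpecialLinearGroup.toGL : SpecialLinearGroup ι F →* GL ι F).range =
    Geo.specialLinear ι F := by
  ext g
  refine ⟨by rintro ⟨x, rfl⟩; exact Units.ext x.2, fun h => ⟨⟨g.1, congrArg Units.val h⟩, Units.ext rfl⟩⟩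

theorem gl_iff : (∀ x ∈ Geo.specialLinear ι F,
      (∃ z : F, ((x ^ r : GL ι F) : Matrix ι ι F) = z • (1 : Matrix ι ι F)) →
      (∀ z : F, (x : Matrix ι ι F) ≠ z • (1 : Matrix ι ι F)) →
      ∃ g ∈ Geo.specialLinear ι F, g⁻¹ * x * g ∈ H) ↔ ∀ x : SpecialLinearGroup ι F,
      (∃ z : F, ((x ^ r : SpecialLinearGroup ι F) : Matrix ι ι F) = z • (1 : Matrix ι ι F)) →
      (∀ z : F, (x : Matrix ι ι F) ≠ z • (1 : Matrix ι ι F)) →
      ∃ P : SpecialLinearGroup ι F, P⁻¹ * x * P ∈ H.comap SpecialLinearGroup.toGL := by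
  simp only [← range_toGL, MonoidHom.mem_range, forall_exists_index, forall_apply_eq_imp_iff,
    exists_exists_eq_and, Subgroup.mem_comap, map_mul, map_inv, ← map_pow,
    SpecialLinearGroup.coe_GL_coe_matrix]

theorem cj_of_sl {x P : SpecialLinearGroup ι F} (h : P⁻¹ * x * P ∈ H.comap SpecialLinearGroup.toGL) :
    Cj H (toLin' x.1) :=
  ⟨_, h, isConj_GL_iff_sim (A := SpecialLinearGroup.toGL x).1
    (isConj_iff.2 ⟨SpecialLinearGroup.toGL P⁻¹, by simp⟩)⟩

theorem sl_of_cj {x : SpecialLinearGroup ι F} (h : Cj H (toLin' x.1)) (hd : Fd (toLin' x.1)) :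
    ∃ P : SpecialLinearGroup ι F, P⁻¹ * x * P ∈ H.comap SpecialLinearGroup.toGL := by
  obtain ⟨h, h1, h2⟩ := h
  obtain ⟨g, rfl⟩ := isConj_iff.1 (isConj_GL_iff_sim (A := SpecialLinearGroup.toGL x).2 h2)
  obtain ⟨k, k1, k2⟩ := exists_det_one_conj (SpecialLinearGroup.toGL x) g hd
  obtain ⟨P, rfl⟩ := range_toGL.ge (show k ∈ Geo.specialLinear ι F from Units.ext k1)
  exact ⟨P⁻¹, by simpa [← k2] using h1⟩

theorem elus_imp {H : Subgroup (GL (Fin n) F)} (h : ∀ x : SL(n, F),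
      (∃ z : F, ((x ^ r : SL(n, F)) : Matrix (Fin n) (Fin n) F) = z • (1 : Matrix (Fin n) (Fin n) F)) →
      (∀ z : F, (x : Matrix (Fin n) (Fin n) F) ≠ z • (1 : Matrix (Fin n) (Fin n) F)) →
      ∃ P : SL(n, F), P⁻¹ * x * P ∈ H.comap SpecialLinearGroup.toGL) :
    ∀ (f : End F (Fin n → F)) c, El r f c → Cj H f :=
  (forall_SL_iff (Cj H)).1 fun x h1 h2 => let ⟨_, e⟩ := h x h1 h2; cj_of_sl e

theorem rel_dvd_index {G : Type*} [Group G] [Finite G] (H S : Subgroup G) [S.Normal] :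
    H.relIndex S ∣ H.index := by
  obtain ⟨t, ht⟩ := Subgroup.relIndex_dvd_index_of_normal S H
  have h1 := Subgroup.relIndex_mul_index (inf_le_right : H ⊓ S ≤ S)
  have h2 := Subgroup.relIndex_mul_index (inf_le_left : H ⊓ S ≤ H)
  rw [Subgroup.inf_relIndex_right, ← h2, Subgroup.inf_relIndex_left, ht, mul_left_comm] at h1
  exact ⟨t, (Nat.eq_of_mul_eq_mul_left (Nat.pos_of_ne_zero Subgroup.index_ne_zero_of_finite) h1).symm⟩

theorem dvd_of_index {G K : Type*} [Group G] [Finite G] [Group K] {H : Subgroup G} (h : r ∣ H.index)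
    (φ : K →* G) (hφ : Function.Injective φ) (hm : ∀ k, φ k ∈ H) {m : ℕ}
    (e : Nat.card G = Nat.card K * m) : r ∣ m := by
  haveI := Finite.of_injective φ hφ
  rw [← φ.range.card_mul_index, ← Nat.card_congr (φ.ofInjective hφ).toEquiv] at e
  exact Nat.eq_of_mul_eq_mul_left Nat.card_pos e ▸
    h.trans (Subgroup.index_dvd_of_le (by rintro _ ⟨k, rfl⟩; exact hm k))

theorem dvd_index [Finite F] (h : r ∣ H.relIndex (Geo.specialLinear ι F)) : r ∣ H.index :=
  haveI : (Geo.specialLinear ι F).Normal := MonoidHom.normal_ker _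
  h.trans (rel_dvd_index _ _)

theorem dvd_index' [Finite F]
    (h : r ∣ (H.comap (SpecialLinearGroup.toGL : SpecialLinearGroup ι F →* GL ι F)).index) :
    r ∣ H.index := dvd_index (by rwa [Subgroup.index_comap, range_toGL] at h)

/-- scalar multiples of maps fixing a hyperplane -/
def R1 (f : End F V) (a : F) : Prop := ∃ (w : F) (φ : Dual F V) (e : V), w ≠ 0 ∧ φ ≠ 0 ∧ e ≠ 0 ∧
  φ e = a ∧ ∀ v, f v = w • (v + φ v • e)

theorem R1.sim {a : F} (h : R1 f a) (hs : Sim f g) : R1 g a := by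
  obtain ⟨w, φ, e, h1, h2, h3, h4, h5⟩ := h
  obtain ⟨E, hE⟩ := hs
  refine ⟨w, φ ∘ₗ E.symm.toLinearMap, E e, h1, fun h => h2 (LinearMap.ext fun v => ?_),
    by simpa using h3, by simpa using h4, fun v => ?_⟩
  · simpa using LinearMap.congr_fun h (E v)
  · simpa [h5] using (hE (E.symm v)).symm

variable [FiniteDimensional F V] [FiniteDimensional F W]

theorem R1.ne_smul {a : F} (h : R1 f a) (hn : 2 ≤ finrank F V) (b : F) : f ≠ b • 1 := by
  rintro rfl
  obtain ⟨w, φ, e, h1, h2, h3, -, h5⟩ := h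
  obtain ⟨u, -, u0, hu⟩ : ∃ u ∈ (⊤ : Submodule F V), u ≠ 0 ∧ φ u = 0 := by
    have h6 := LinearMap.finrank_range_add_finrank_ker φ
    have := (LinearMap.range φ).finrank_le
    rw [finrank_self] at this
    obtain ⟨u, hu, h0⟩ := (Submodule.ne_bot_iff (LinearMap.ker φ)).1 fun e => by
      rw [e, finrank_bot] at h6; omega
    exact ⟨u, trivial, h0, hu⟩
  have e1 : b = w := smul_left_injective F u0 (by simpa [hu] using h5 u)
  exact h2 (LinearMap.ext fun v => by simpa [e1, h1, h3] using h5 v)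

theorem exists_r1 (hn : 2 ≤ finrank F V) (a : F) {w : F} (hw : w ≠ 0) : ∃ f : End F V, R1 f a ∧
    LinearMap.det f = w ^ finrank F V * (1 + a) ∧ ∀ s : F, (w⁻¹ • f - 1) ^ 2 = a • (w⁻¹ • f - 1) := by
  let b := finBasis F V
  let i : Fin (finrank F V) := ⟨0, by omega⟩
  let j : Fin (finrank F V) := ⟨1, by omega⟩
  have h : (a • b.coord i + b.coord j) (b i) = a := by simp [i, j, Finsupp.single_apply]
  refine ⟨w • LinearMap.transvection (a • b.coord i + b.coord j) (b i), ⟨w, _, _, hw, fun e => ?_,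
    b.ne_zero i, h, fun v => rfl⟩, by rw [LinearMap.det_smul, LinearMap.transvection.det, h],
    fun _ => LinearMap.ext fun v => ?_⟩
  · simpa [i, j, Finsupp.single_apply] using LinearMap.congr_fun e (b j)
  · generalize a • b.coord i + b.coord j = φ at h
    simp [sq, hw, LinearMap.transvection.apply, h, smul_smul, mul_comm]

theorem exists_tv {p : ℕ} [hp : Fact p.Prime] [CharP F p] (hn : 2 ≤ finrank F V) :
    ∃ f : End F V, El p f 1 ∧ R1 f 0 := by
  obtain ⟨f, h1, h2, h3⟩ := exists_r1 hn (0 : F) one_ne_zero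
  refine ⟨f, ⟨by simpa using h2, ?_, h1.ne_smul hn⟩, h1⟩
  have := h3 0
  rw [inv_one, one_smul, zero_smul] at this
  rw [one_smul, ← sub_eq_zero, ← sub_one_pow_char, ← Nat.add_sub_cancel' hp.out.two_le, pow_add, this,
    zero_mul]

omit [FiniteDimensional F W] in
theorem Fd.sim (h : Fd g) (e : Sim f g) : Fd f := fun d hd => e.exists_commute_det (h d hd)

variable [Fintype F]

theorem exists_pow_neg (h2 : (2 : F) ≠ 0) (hn : n ≠ 0) : (∃ w : F, w ^ n = -1) ↔
    ¬ padicValNat 2 (Fintype.card F - 1) ≤ padicValNat 2 n := by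
  have hc : Nat.card Fˣ = Fintype.card F - 1 := by rw [Nat.card_units, Nat.card_eq_fintype_card]
  have h0 : Nat.card Fˣ ≠ 0 := Nat.card_pos.ne'
  have h1 : (-1 : Fˣ) ≠ 1 := fun e => h2 (by
    have : (-1 : F) = 1 := congrArg Units.val e
    linear_combination -this)
  have : (∃ w : F, w ^ n = -1) ↔ ∃ w : Fˣ, w ^ n = -1 :=
    ⟨fun ⟨w, hw⟩ => ⟨Units.mk0 w (ne_zero_pow hn (by simp [hw])), Units.ext (by simpa using hw)⟩,
      fun ⟨w, hw⟩ => ⟨w, by simpa using congrArg Units.val hw⟩⟩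
  rw [this, exists_pow_eq_iff, ← orderOf_dvd_iff_pow_eq_one, orderOf_eq_prime (p := 2) (by simp) h1, ← hc,
    Nat.dvd_div_iff_mul_dvd (Nat.gcd_dvd_left _ _), ← padicValNat_dvd_iff_le hn]
  constructor
  · intro h h'
    exact pow_succ_padicValNat_not_dvd (p := 2) h0 ((Nat.mul_dvd_mul_right
      (Nat.dvd_gcd pow_padicValNat_dvd h') 2).trans h)
  · intro h
    obtain ⟨t, ht⟩ := Nat.gcd_dvd_left (Nat.card Fˣ) n
    refine (Nat.mul_dvd_mul_left _ ?_).trans ht.symm.dvd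
    by_contra h'
    refine h ((Nat.Coprime.dvd_of_dvd_mul_right (Nat.Coprime.pow_left _
      ((Nat.Prime.coprime_iff_not_dvd Nat.prime_two).2 h')) ?_).trans (Nat.gcd_dvd_right (Nat.card Fˣ) n))
    rw [← ht]; exact pow_padicValNat_dvd

theorem exists_refl (h2 : (2 : F) ≠ 0) (hn : 2 ≤ finrank F V)
    (h : ¬ padicValNat 2 (Fintype.card F - 1) ≤ padicValNat 2 (finrank F V)) :
    ∃ (f : End F V) (c : F), El 2 f c ∧ R1 f (-2) := by
  obtain ⟨w, hw⟩ := (exists_pow_neg h2 (by omega)).2 h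
  have w0 : w ≠ 0 := ne_zero_pow (n := finrank F V) (by omega) (by simp [hw])
  obtain ⟨f, h1, h3, h4⟩ := exists_r1 hn (-2 : F) w0
  refine ⟨f, w ^ 2, ⟨by rw [h3, hw]; ring, ?_, h1.ne_smul hn⟩, h1⟩
  have e : (w⁻¹ • f) ^ 2 = 1 := by
    have := h4 0
    generalize w⁻¹ • f = k at this
    rw [show (-2 : F) • (k - 1) = -(k - 1) - (k - 1) by module] at this
    linear_combination (norm := noncomm_ring) this
  rw [← e, ← _root_.smul_pow, smul_inv_smul₀ w0]

theorem _root_.Cfsg.Agent.Elu.El.nontriv (h : El r f c) : Nontrivial V :=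
  not_subsingleton_iff_nontrivial.1 fun _ => h.2.2 0 (Subsingleton.elim _ _)

theorem fd_of (hf : El r f c) (h : (r : F) ≠ 0 ∨ r = 2) : Fd f := by
  haveI := hf.nontriv
  by_cases h0 : (r : F) = 0
  swap
  · exact fun d _ => exists_commute_det_ss (squarefree_X_pow_sub_C h0 hf.ne) (aeval_of_pow_eq hf.2.1) d
  obtain rfl := h.resolve_left (not_not.2 h0)
  haveI : CharP F 2 := CharTwo.of_one_ne_zero_of_two_eq_zero one_ne_zero (by exact_mod_cast h0)
  obtain ⟨w, g, -, -, rfl, hg⟩ := exists_unip_of_pow hf.ne hf.2.1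
  obtain ⟨t, d, h1, h2⟩ := exists_jordan (f := g - 1) ⟨2, hg⟩
  intro a _
  have h3 := (nil_pow_eq_zero_iff d 2).1 ((h2.pow 2).zero_iff.1 hg)
  rcases t with _ | t
  · have := h2.finrank_eq
    rw [finrank_nil] at this
    exact absurd this finrank_pos.ne'
  obtain ⟨b, rfl⟩ : ∃ b : F, b ^ d 0 = a := by
    obtain e | e : d 0 = 1 ∨ d 0 = 2 := by have := h1 0; have := h3 0; omega
    exacts [⟨a, by simp [e]⟩, e ▸ surjective_frobenius F 2 a]
  obtain ⟨k, k1, k2⟩ := h2.exists_commute_det (d := b ^ d 0) (by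
    simpa using exists_commute_det_pow (f := fun k => (X : F[X]) ^ d k) (fun k => monic_X_pow _) 0 b)
  exact ⟨k, by rw [mul_smul_comm, smul_mul_assoc]; congr 1; simpa [mul_sub, sub_mul] using k1, k2⟩

theorem elus_iff {H : Subgroup (GL (Fin n) F)} (h : (r : F) ≠ 0 ∨ r = 2) : (∀ x : SL(n, F),
      (∃ z : F, ((x ^ r : SL(n, F)) : Matrix (Fin n) (Fin n) F) = z • (1 : Matrix (Fin n) (Fin n) F)) →
      (∀ z : F, (x : Matrix (Fin n) (Fin n) F) ≠ z • (1 : Matrix (Fin n) (Fin n) F)) →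
      ∃ P : SL(n, F), P⁻¹ * x * P ∈ H.comap SpecialLinearGroup.toGL) ↔
    ∀ (f : End F (Fin n → F)) c, El r f c → Cj H f :=
  ⟨elus_imp, fun e x h1 h2 => sl_of_cj ((forall_SL_iff (Cj H)).2 e x h1 h2)
    ((forall_SL_iff Fd).2 (fun _ _ hf => fd_of hf h) x h1 h2)⟩

end Cfsg.Agent.Elv
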