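import Mathlib
import Cfsg.Agent.Elv.Basic
import Cfsg.Agent.Elu.Fpf

/-!
Semisimple elements whose eigenvalues have no twisted symmetry.
-/

set_option autoImplicit false
set_option backward.isDefEq.respectTransparency false

namespace Cfsg.Agent.Elv

open Module Polynomial Conj Spc Elu Matrix
open scoped _root_.Classical MatrixGroups

theorem fix3 {α : Type*} {χ : α → α} (hχ : Function.Injective χ) {u v w : α} {a b c : ℕ}
    (h : SX χ (Multiset.replicate a u + Multiset.replicate b v + Multiset.replicate c w))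
    (h1 : u ≠ v) (h2 : u ≠ w) (h3 : v ≠ w) (ha : a ≠ 0) (hab : a ≠ b) (hac : a ≠ c) : χ u = u := by
  have := (sx_iff_count hχ).1 h u
  by_contra e
  simp only [Multiset.count_add, Multiset.count_replicate, if_neg (Ne.symm e), if_neg h1.symm,
    if_neg h2.symm, if_true] at this
  split_ifs at this with e1 e2
  exacts [h3 (e1.trans e2.symm), by omega, by omega, by omega]

variable {L : Type*} [Field L] {r n : ℕ} {a : ℤ}

/-- twisted symmetry -/
def Sy (a : ℤ) (M : Multiset L) : Prop := ∃ l : L, l ≠ 0 ∧ SX (fun z => l * z ^ a) M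

theorem inj_tw (ha : Function.Injective (pw a : L → L)) {l : L} (hl : l ≠ 0) :
    Function.Injective fun z : L => l * z ^ a := fun _ _ h => ha (mul_left_cancel₀ hl h)

theorem eq_of_tw {l u ζ : L} {b c : ℤ} (hζ : IsPrimitiveRoot ζ r) (hr : 0 < r) (hu : u ≠ 0)
    (h1 : l * u ^ a = u * ζ ^ b) (h2 : l * (u * ζ) ^ a = u * ζ ^ c) : (a : ZMod r) = c - b := by
  have h0 := hζ.ne_zero hr.ne'
  rw [mul_zpow, ← mul_assoc, h1, mul_assoc, ← zpow_add₀ h0] at h2
  have := (zpow_eq_iff hζ hr _ _).1 (mul_left_cancel₀ hu h2)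
  rw [← this]; push_cast; ring

theorem not_sy3 (ha : Function.Injective (pw a : L → L)) {u ζ w : L} {b c d : ℕ}
    (hζ : IsPrimitiveRoot ζ r) (hr : 1 < r) (hu : u ≠ 0) (h1 : (a : ZMod r) ≠ 1) (h2 : u ≠ w)
    (h3 : u * ζ ≠ w) (hb : b ≠ 0) (hc : c ≠ 0) (hbc : b ≠ c) (hbd : b ≠ d) (hcd : c ≠ d) :
    ¬ Sy a (Multiset.replicate b u + Multiset.replicate c (u * ζ) + Multiset.replicate d w) := by
  rintro ⟨l, hl, h⟩
  have h4 : u ≠ u * ζ := by simpa [hu, eq_comm] using hζ.ne_one hr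
  have e1 := fix3 (inj_tw ha hl) h h4 h2 h3 hb hbc hbd
  rw [add_comm (Multiset.replicate b u)] at h
  have e2 := fix3 (inj_tw ha hl) h h4.symm h3 h2 hc hbc.symm hcd
  exact h1 (by simpa using eq_of_tw (b := 0) (c := 1) hζ (by omega) hu (by simpa using e1) (by simpa using e2))

variable {F : Type*} [Field F] [Fintype F] (L : Type*) [Field L] [IsAlgClosed L] [Algebra F L]

theorem exists_el_F (M : Multiset F) {c u v : F} (hn : M.card = n) (h : ∀ z ∈ M, z ^ r = c)
    (hp : M.prod = 1) (hu : u ∈ M) (hv : v ∈ M) (huv : u ≠ v) :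
    ∃ f : End F (Fin n → F), El r f c ∧ ev L f = M.map (algebraMap F L) := by
  obtain ⟨f, h1, h2⟩ := exists_end_pow L (M.map (algebraMap F L)) (St.of_fix fun z hz => by
      obtain ⟨w, -, rfl⟩ := Multiset.mem_map.1 hz; exact alg_pow_card L w) (r := r) (c := c)
    (fun z hz => by obtain ⟨w, hw, rfl⟩ := Multiset.mem_map.1 hz; rw [← map_pow, h w hw])
    (ι := Fin n) (by simpa using hn)
  refine ⟨f, ⟨(algebraMap F L).injective ?_, h1, fun b e => huv ((algebraMap F L).injective ?_)⟩, h2⟩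
  · rw [← prod_ev_eq_det, h2, ← map_multiset_prod, hp]
  rw [e, ← Algebra.algebraMap_eq_smul_one, ev_scalar] at h2
  have k : ∀ u ∈ M, algebraMap F L u = algebraMap F L b := fun u hu =>
    Multiset.eq_of_mem_replicate (h2 ▸ Multiset.mem_map_of_mem _ hu)
  rw [k u hu, k v hv]

theorem exists_prim_F (hr : r.Prime) (h : r ∣ Fintype.card F - 1) : ∃ ζ : F, IsPrimitiveRoot ζ r := by
  haveI := Fact.mk hr
  obtain ⟨g, hg⟩ := exists_prime_orderOf_dvd_card (G := Fˣ) r (by rwa [Fintype.card_units])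
  exact ⟨g, IsPrimitiveRoot.coe_units_iff.2 (hg ▸ IsPrimitiveRoot.orderOf g)⟩

theorem exists_pow_mul (hr : r.Prime) (hn : n ≠ 0) {ζ : F} (hζ : ζ ^ r = 1)
    (h : padicValNat r n < padicValNat r (Fintype.card F - 1)) : ∃ w : F, w ^ n * ζ = 1 := by
  haveI := Fact.mk hr
  have h0 : ζ ≠ 0 := ne_zero_pow hr.ne_zero (by simp [hζ])
  have hc : Nat.card Fˣ = Fintype.card F - 1 := by rw [Nat.card_units, Nat.card_eq_fintype_card]
  obtain ⟨w, hw⟩ := (exists_pow_eq_iff (G := Fˣ) (Units.mk0 ζ h0)⁻¹ n).2 (by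
    rw [inv_pow, inv_eq_one, ← orderOf_dvd_iff_pow_eq_one]
    refine (orderOf_dvd_of_pow_eq_one (n := r) (Units.ext (by simpa using hζ))).trans ?_
    obtain ⟨t, ht⟩ := Nat.gcd_dvd_left (Nat.card Fˣ) n
    have h1 : 0 < (Nat.card Fˣ).gcd n := Nat.gcd_pos_of_pos_right _ (by omega)
    rw [Nat.div_eq_of_eq_mul_right h1 ht]
    by_contra h'
    have h2 : r ^ padicValNat r (Nat.card Fˣ) ∣ n := (Nat.Coprime.dvd_of_dvd_mul_right
      (Nat.Coprime.pow_left _ ((Nat.Prime.coprime_iff_not_dvd hr).2 h'))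
      (by rw [← ht]; exact pow_padicValNat_dvd)).trans (Nat.gcd_dvd_right (Nat.card Fˣ) n)
    rw [padicValNat_dvd_iff_le hn, hc] at h2
    omega)
  exact ⟨w, by simpa [h0] using congrArg (fun x : Fˣ => x.1 * ζ) hw⟩

theorem der_ne [hr : Fact r.Prime] (h0 : (r : F) ≠ 0) (ha : Function.Injective (pw a : L → L))
    (h1 : ¬ orderOf (a : ZMod r) ∣ orderOf (Fintype.card F : ZMod r))
    (hi : orderOf (Fintype.card F : ZMod r) ≠ 1) (hn : orderOf (Fintype.card F : ZMod r) ≤ n) :
    ∃ (f : End F (Fin n → F)) (c : F), El r f c ∧ ¬ Sy a (ev L f) := by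
  obtain ⟨ζ, hζ⟩ := exists_prim L h0
  have i0 := ord_pos h0 hr.out
  obtain ⟨e, rfl⟩ := Nat.exists_eq_add_of_le' hn
  obtain ⟨s1, s2, s3, s4⟩ := shp_spec L hr.out hi hζ e 1
  have hc := fx_add_nf (q := Fintype.card F) (M := shp (Fintype.card F) ζ (orderOf (Fintype.card F : ZMod r)) e 1)
  rw [s3, s4, mul_one] at hc
  obtain ⟨f, hf, hf'⟩ := exists_el_of_ne L hr.out hi _ s1 s2 hc.symm (by rw [s4]; omega)
  refine ⟨f, 1, hf, fun ⟨l, hl, h⟩ => ?_⟩
  have hp := prod_ev_eq_det L f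
  rw [hf'] at h hp
  have hζ1 := hζ.ne_one hr.out.one_lt
  have hz : ζ ∈ shp (Fintype.card F) ζ (orderOf (Fintype.card F : ZMod r)) e 1 :=
    Multiset.mem_add.2 (Or.inr (by simpa using self_mem_orb _ _ i0))
  have hP : Per (Fintype.card F) ζ (orderOf (Fintype.card F : ZMod r)) := by
    simpa using per_of_prim (q := Fintype.card F) hζ hr.out.pos one_ne_zero (one_pow _)
  have a1 : ζ ^ a ≠ 1 := fun e => hζ1 (ha (by simpa [pw] using e))
  obtain rfl : l = 1 := by
    have l1 : l ^ r = 1 := by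
      have := s2 _ (h.mem hz)
      rwa [mul_pow, ← zpow_natCast (ζ ^ a), ← _root_.zpow_mul, mul_comm a, _root_.zpow_mul, zpow_natCast,
        hζ.pow_eq_one, _root_.one_zpow, mul_one] at this
    have l2 : l ^ (e + orderOf (Fintype.card F : ZMod r)) = 1 := by
      have := congrArg Multiset.prod h
      rwa [Multiset.prod_map_mul, Multiset.prod_map_zpow, Multiset.map_id', hp, hf.1, map_one,
        _root_.one_zpow, Multiset.map_const', Multiset.prod_replicate, ← hc, mul_one] at this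
    by_cases hd : r ∣ e + orderOf (Fintype.card F : ZMod r)
    swap
    · simpa using (pow_eq_one_iff_of_coprime ((hr.out.coprime_iff_not_dvd).2 hd)).1 ⟨l1, l2⟩
    have h3 : orderOf (Fintype.card F : ZMod r) ∣ r - 1 :=
      ZMod.orderOf_dvd_card_sub_one (card_ne_zero_zmod h0)
    have h4 := Nat.le_of_dvd (by have := hr.out.two_le; omega) h3
    have h5 := Nat.le_of_dvd (by omega) hd
    have h6 : orderOf (Fintype.card F : ZMod r) ≠ r - 1 := fun e => h1 (e ▸
      ZMod.orderOf_dvd_card_sub_one fun e => a1 (by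
        simpa using (zpow_eq_iff hζ hr.out.pos a 0).2 (by simpa using e)))
    have h7 := (sx_iff_count (inj_tw ha hl)).1 h 1
    by_contra e'
    have h8 := Multiset.nodup_iff_count_le_one.1 hP.nodup l
    simp [shp, Multiset.count_replicate, Ne.symm e'] at h7
    omega
  have := h.mem hz
  rw [one_mul] at this
  obtain ⟨j, -, hj⟩ := mem_orb_pow.1 (show ζ ^ a ∈ orb (· ^ Fintype.card F) ζ _ by
    simpa using (Multiset.mem_add.1 this).resolve_left fun e => a1 (Multiset.eq_of_mem_replicate e))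
  rw [← zpow_natCast, zpow_eq_iff hζ hr.out.pos] at hj
  exact h1 (by rw [← hj]; push_cast; exact orderOf_pow_dvd j)

theorem der [hr : Fact r.Prime] (h2 : r ≠ 2) (h0 : (r : F) ≠ 0) (ha : Function.Injective (pw a : L → L))
    (h1 : ¬ orderOf (a : ZMod r) ∣ orderOf (Fintype.card F : ZMod r))
    (hn : orderOf (Fintype.card F : ZMod r) ≤ n) (hn2 : 2 ≤ n) (hn3 : n = 2 → (a : ZMod r) ≠ -1)
    (h6 : ¬ (n = 6 ∧ r = 3))
    (h5 : ¬ ((r = 3 ∨ r = 5) ∧ n = r ∧ padicValNat r (Fintype.card F - 1) = 1)) :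
    ∃ (f : End F (Fin n → F)) (c : F), El r f c ∧ ¬ Sy a (ev L f) := by
  by_cases hi : orderOf (Fintype.card F : ZMod r) = 1
  swap
  · exact der_ne L h0 ha h1 hi hn
  have hd := orderOf_eq_one_iff'.1 hi
  obtain ⟨ζ, hζ⟩ := exists_prim_F hr.out hd
  have a1 : (a : ZMod r) ≠ 1 := fun e => h1 (by simp [e])
  have r1 := hr.out.one_lt
  have z0 := hζ.ne_zero hr.out.ne_zero
  have key : ∀ (u ξ w : F) (b c d : ℕ), IsPrimitiveRoot ξ r → u ≠ 0 → u ≠ w → u * ξ ≠ w → b ≠ 0 →
      c ≠ 0 → b ≠ c → b ≠ d → c ≠ d → b + c + d = n → u ^ b * (u * ξ) ^ c * w ^ d = 1 →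
      (d ≠ 0 → w ^ r = u ^ r) → ∃ (f : End F (Fin n → F)) (c : F), El r f c ∧ ¬ Sy a (ev L f) := by
    intro u ξ w b c d k1 k2 k3 k4 k5 k6 k7 k8 k9 k10 k11 k12
    obtain ⟨f, hf, hf'⟩ := exists_el_F L (r := r) (c := u ^ r) (u := u) (v := u * ξ)
      (Multiset.replicate b u + Multiset.replicate c (u * ξ) + Multiset.replicate d w) (by simpa using k10)
      (by simp +contextual [Multiset.mem_replicate, or_imp, mul_pow, k1.pow_eq_one, k12])
      (by simpa using k11) (by simp [Multiset.mem_replicate, k5]) (by simp [Multiset.mem_replicate, k6])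
      (by simpa [k2, eq_comm] using k1.ne_one r1)
    refine ⟨f, _, hf, ?_⟩
    have i := (algebraMap F L).injective
    simp only [hf', Multiset.map_add, Multiset.map_replicate, map_mul]
    exact not_sy3 ha (k1.map_of_injective i) r1 (by simpa using k2) a1 (i.ne k3)
      (by simpa using i.ne k4) k5 k6 k7 k8 k9
  by_cases hv : padicValNat r n < padicValNat r (Fintype.card F - 1)
  · obtain ⟨w, hw⟩ := exists_pow_mul hr.out (by omega) hζ.pow_eq_one hv
    have w0 : w ≠ 0 := by rintro rfl; simp [show n ≠ 0 by omega] at hw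
    obtain rfl | h3 := hn2.eq_or_lt
    · have k : w ≠ w * ζ := by simpa [w0, eq_comm] using hζ.ne_one r1
      obtain ⟨f, hf, hf'⟩ := exists_el_F L (r := r) (c := w ^ r) (u := w) (v := w * ζ) (n := 2)
        {w, w * ζ} rfl (by simp [mul_pow, hζ.pow_eq_one]) (by simpa [sq, mul_assoc] using hw)
        (by simp) (by simp) k
      refine ⟨f, _, hf, fun ⟨l, hl, h⟩ => ?_⟩
      have i := (algebraMap F L).injective
      have z := hζ.map_of_injective i
      have e := fun b c => eq_of_tw (a := a) (l := l) (u := algebraMap F L w) (b := b) (c := c) z hr.out.pos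
      simp only [hf', SX, Multiset.insert_eq_cons, Multiset.map_cons, Multiset.map_singleton, map_mul,
        Multiset.cons_eq_cons, Multiset.singleton_inj, Multiset.singleton_eq_cons_iff] at h
      obtain ⟨e1, e2⟩ | ⟨-, _, ⟨e1, -⟩, e2, -⟩ := h
      · exact a1 (by simpa using e 0 1 (by simpa using w0) (by simpa using e1) (by simpa using e2))
      · exact hn3 rfl (by simpa using e 1 0 (by simpa using w0) (by simpa using e2.symm) (by simpa using e1))
    obtain ⟨m, rfl⟩ := Nat.exists_eq_add_of_le' (show 1 ≤ n by omega)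
    exact key w ζ 0 m 1 0 hζ w0 w0 (by simp [w0, z0]) (by omega) (by omega) (by omega) (by omega)
      (by omega) rfl (by rw [← hw]; ring) (by simp)
  have v1 := one_le_padicValNat_of_dvd (by have := one_lt_card (F := F); omega) hd
  have hrn : r ∣ n := dvd_of_one_le_padicValNat (by omega)
  have hne : n = r → r ≠ 3 ∧ r ≠ 5 := fun e => by
    rw [e, padicValNat_self] at hv
    exact not_or.1 fun h => h5 ⟨h, e, by omega⟩
  have r3 := Nat.le_of_dvd (by omega) hrn
  by_cases e3 : r = 3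
  · subst e3
    obtain ⟨m, rfl⟩ := hrn
    obtain ⟨m, rfl⟩ := Nat.exists_eq_add_of_le' (show 1 ≤ m by omega)
    exact key 1 ζ 0 3 (3 * m) 0 hζ one_ne_zero one_ne_zero (by simpa) (by omega) (by omega) (by omega)
      (by omega) (by omega) (by omega) (by simp [pow_mul, hζ.pow_eq_one]) (by simp)
  have r5 : 5 ≤ r := hr.out.five_le_of_ne_two_of_ne_three h2 e3
  have c : ∀ k, 0 < k → k < 5 → IsPrimitiveRoot (ζ ^ k) r := fun k h h' =>
    hζ.pow_of_coprime k ((Nat.coprime_of_lt_prime h.ne' (by omega) hr.out).symm)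
  have n5 : n ≠ 5 := fun e => by
    have := (Nat.prime_dvd_prime_iff_eq hr.out Nat.prime_five).1 (e ▸ hrn); omega
  refine key (ζ ^ 2)⁻¹ (ζ ^ 3) 1 1 2 (n - 3) (c 3 (by omega) (by omega)) (by simpa)
    (by simpa using (c 2 (by omega) (by omega)).ne_one r1) ?_ (by omega) (by omega) (by omega)
    (by omega) (by omega) (by omega) (by field_simp; simp) (by simp [(c 2 (by omega) (by omega)).pow_eq_one])
  rw [show (ζ ^ 2)⁻¹ * ζ ^ 3 = ζ by field_simp]
  exact hζ.ne_one r1

theorem sym3 : ∀ a b c : ZMod 3, ({a, b, c} : Multiset (ZMod 3)).sum = 0 → ∃ t,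
    ({a, b, c} : Multiset (ZMod 3)).map (fun x => -(t + x)) = ({a, b, c} : Multiset (ZMod 3)).map (t + ·) := by
  decide +kernel

theorem sym5 : ∀ a b c d : ZMod 5, ∃ t, (-(a + b + c + d) ::ₘ {a, b, c, d}).map (fun x => -(t + x)) =
    (-(a + b + c + d) ::ₘ {a, b, c, d}).map (t + ·) := by
  decide +kernel

theorem sym_aux [hr : Fact r.Prime] (h : r = 3 ∨ r = 5) (m : Multiset (ZMod r)) (hc : m.card = r)
    (hs : m.sum = 0) : ∃ t, m.map (fun x => -(t + x)) = m.map (t + ·) := by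
  obtain rfl | rfl := h
  · obtain ⟨a, b, c, rfl⟩ := Multiset.card_eq_three.1 hc
    exact sym3 a b c hs
  · obtain ⟨e, he⟩ := Multiset.card_pos_iff_exists_mem.1 (show 0 < m.card by omega)
    obtain ⟨m, rfl⟩ := Multiset.exists_cons_of_mem he
    obtain ⟨a, b, c, d, rfl⟩ := Multiset.card_eq_four.1 (show m.card = 4 by simpa using hc)
    obtain rfl : e = -(a + b + c + d) := by simp at hs; linear_combination hs
    exact sym5 a b c d

theorem sym {V : Type*} [AddCommGroup V] [Module F V] [FiniteDimensional F V] [hr : Fact r.Prime]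
    (h : r = 3 ∨ r = 5) (hn : finrank F V = r) (hv : padicValNat r (Fintype.card F - 1) = 1)
    {f : End F V} {c : F} (hf : El r f c) :
    ∃ w : F, w ≠ 0 ∧ (w • f) ^ r = 1 ∧ SX (pw (-1)) (ev L (w • f)) := by
  have hd : r ∣ Fintype.card F - 1 := dvd_of_one_le_padicValNat hv.ge
  have hi := orderOf_eq_one_iff'.2 hd
  obtain ⟨ζ, hζ⟩ := exists_prim_F hr.out hd
  have h1 := nf_eq_zero.1 ((fx_or_nf L hr.out hi hf.ne hf.2.1).resolve_right fun e =>
    (not_cnd_of_fx L hr.out hi hf e).1 ⟨by rw [hn, padicValNat_self, hv], by omega⟩)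
  obtain ⟨z, hz⟩ := Multiset.card_pos_iff_exists_mem.1 (show 0 < (ev L f).card by
    rw [card_ev, hn]; exact hr.out.pos)
  obtain ⟨u, rfl⟩ := mem_range_of_pow_card L (h1 z hz)
  have i := (algebraMap F L).injective
  obtain rfl : u ^ r = c := i (by rw [map_pow]; exact pow_eq_of_mem_ev' L hf.2.1 hz)
  have u0 : u ≠ 0 := ne_zero_pow hr.out.ne_zero hf.ne
  have u1 : u ^ r = 1 := by
    have e1 := congrArg LinearMap.det hf.2.1
    rw [map_pow, hf.1, one_pow, LinearMap.det_smul, map_one, mul_one, hn, ← pow_mul, ← sq] at e1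
    obtain ⟨j, hj, e⟩ := (Nat.dvd_prime_pow hr.out).1 (orderOf_dvd_of_pow_eq_one e1.symm)
    have e2 := (padicValNat_dvd_iff_le (by have := one_lt_card (F := F); omega)).1
      (e ▸ orderOf_dvd_of_pow_eq_one (FiniteField.pow_card_sub_one_eq_one u u0))
    exact orderOf_dvd_iff_pow_eq_one.1 (by rw [e]; exact (pow_dvd_pow r (hv ▸ e2)).trans (pow_one r).dvd)
  have hz := hζ.map_of_injective i
  obtain ⟨m, hm⟩ : ∃ m : Multiset (ZMod r), m.map (ez (algebraMap F L ζ)) = ev L f :=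
    haveI : CanLift L (ZMod r) (ez (algebraMap F L ζ)) (· ^ r = 1) :=
      ⟨fun z h => by simpa using exists_ez hz one_ne_zero (z := z) (by simpa using h)⟩
    (Multiset.canLift _ _).prf _ fun z hz' => by rw [pow_eq_of_mem_ev' L hf.2.1 hz', u1, map_one]
  have e3 : ∀ m : Multiset (ZMod r), (m.map (ez (algebraMap F L ζ))).prod = ez (algebraMap F L ζ) m.sum :=
    fun m => Multiset.induction_on m (by simp [ez_zero]) fun a s e => by simp [e, ez_add hz]
  obtain ⟨t, ht⟩ := sym_aux h m (by simpa [← hm, hn] using card_ev L f)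
    (ez_inj hz (by rw [← e3, hm, prod_ev_eq_det, hf.1, ez_zero, map_one]))
  refine ⟨ζ ^ t.val, pow_ne_zero _ (hζ.ne_zero hr.out.ne_zero), ?_, ?_⟩
  · rw [_root_.smul_pow, hf.2.1, u1, ← pow_mul, mul_comm, pow_mul, hζ.pow_eq_one]; simp
  · have := congrArg (Multiset.map (ez (algebraMap F L ζ))) ht
    simpa [SX, ev_smul', ← hm, pw, ez_neg hz, ez_add hz, show ez _ t = _ ^ t.val from rfl] using this

end Cfsg.Agent.Elv
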