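import Mathlib
import Cfsg.Agent.Elv.Der
import Cfsg.Agent.Elu.Sp2
import Cfsg.Agent.Max.SLGeo

/-!
Similarity groups of forms; the symplectic case.
-/

set_option autoImplicit false
set_option backward.isDefEq.respectTransparency false

namespace Cfsg.Agent.Elv

open Module Polynomial Conj Spc Elu Matrix
open scoped _root_.Classical MatrixGroups

universe u

variable {F : Type u} [Field F] {V W U : Type*} [AddCommGroup V] [Module F V] [AddCommGroup W]
  [Module F W] [AddCommGroup U] [Module F U] {σ : F →+* F} {B : V →ₛₗ[σ] V →ₗ[F] F}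
  {B' : W →ₛₗ[σ] W →ₗ[F] F} {ε : F} {f : End F V} {g : End F W} {r n : ℕ} {c : F}

/-- similarities -/
def Sm (B : V →ₛₗ[σ] V →ₗ[F] F) (f : End F V) : Prop :=
  ∃ μ : F, μ ≠ 0 ∧ ∀ x y, B (f x) (f y) = μ * B x y

/-- similar to a similarity -/
def CS (B : V →ₛₗ[σ] V →ₗ[F] F) (g : End F W) : Prop := ∃ h, Sm B h ∧ Sim g h

theorem sm_of_im (h : Im B f) : Sm B f := ⟨1, one_ne_zero, fun x y => (h x y).trans (one_mul _).symm⟩

theorem CS.smul (h : CS B g) {w : F} (hw : w ≠ 0) : CS B (w • g) :=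
  let ⟨k, ⟨μ, h1, h2⟩, h3⟩ := h
  ⟨w • k, ⟨σ w * w * μ, by simp [hw, h1], fun x y => by simp [h2]; ring⟩, h3.smul w⟩

theorem CS.sim {k : End F U} (h : CS B g) (e : Sim k g) : CS B k := h.imp fun _ h => ⟨h.1, e.trans h.2⟩

theorem cs_of_iso (e : W ≃ₗ[F] V) (he : ∀ x y, B (e x) (e y) = B' x y) (h : Sm B' g) : CS B g :=
  let ⟨μ, h1, h2⟩ := h
  ⟨e.conj g, ⟨μ, h1, fun x y => by
    rw [LinearEquiv.conj_apply_apply, LinearEquiv.conj_apply_apply, he, h2, ← he]; simp⟩,
    e, fun v => by simp⟩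

theorem mul_pow_eq [Nontrivial V] (hB : EF B ε) {μ : F} (h : ∀ x y, B (f x) (f y) = μ * B x y)
    (hf : f ^ r = c • 1) : μ ^ r = σ c * c := by
  have e : ∀ k x y, B ((f ^ k) x) ((f ^ k) y) = μ ^ k * B x y := fun k => by
    induction k with
    | zero => simp
    | succ k ih => intro x y; rw [pow_succ', End.mul_apply, End.mul_apply, h, ih]; ring
  obtain ⟨x, hx⟩ := exists_ne (0 : V)
  obtain ⟨y, hy⟩ := not_forall.1 (mt (hB.nd x) hx)
  have := e r x y
  rw [hf] at this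
  exact mul_right_cancel₀ hy (by rw [← this]; simp; ring)

theorem elus_form {H : Subgroup (GL (Fin n) F)} {B : (Fin n → F) →ₛₗ[σ] (Fin n → F) →ₗ[F] F}
    (h : ∀ g, g ∈ H ↔ Sm B (toLin' g.1)) : (∀ (f : End F (Fin n → F)) c, El r f c → Cj H f) ↔
      ∀ (f : End F (Fin n → F)) c, El r f c → CS B f :=
  forall₃_congr fun _ _ hf => cj_iff _ h (by rw [hf.1]; exact one_ne_zero)

theorem exists_der {H : Subgroup (GL (Fin n) F)} (h : ¬ ∀ (f : End F (Fin n → F)) c, El r f c → Cj H f) :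
    ∃ x : SL(n, F),
      (∃ z : F, ((x ^ r : SL(n, F)) : Matrix (Fin n) (Fin n) F) = z • (1 : Matrix (Fin n) (Fin n) F)) ∧
      (∀ z : F, (x : Matrix (Fin n) (Fin n) F) ≠ z • (1 : Matrix (Fin n) (Fin n) F)) ∧
      ∀ P : SL(n, F), P⁻¹ * x * P ∉ H.comap SpecialLinearGroup.toGL := by
  by_contra e
  exact h (elus_imp fun x h1 h2 => by_contra fun h3 => e ⟨x, h1, h2, not_exists.1 h3⟩)

theorem mem_sim {ι : Type} [Fintype ι] [DecidableEq ι] (B : (ι → F) →ₛₗ[σ] (ι → F) →ₗ[F] F)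
    (g : GL ι F) : (∃ c : Fˣ, ∀ u v, B (g.1 *ᵥ u) (g.1 *ᵥ v) = c * B u v) ↔ Sm B (toLin' g.1) :=
  ⟨fun ⟨c, h⟩ => ⟨c, c.ne_zero, h⟩, fun ⟨c, h0, h⟩ => ⟨Units.mk0 c h0, h⟩⟩

variable [FiniteDimensional F V] [FiniteDimensional F W]

theorem R1.cs {a : F} (h : R1 g a) (hB : EF B ε) (hn : 3 ≤ finrank F V) (hs : CS B g) :
    ∃ (φ : Dual F V) (e : V), φ ≠ 0 ∧ e ≠ 0 ∧ φ e = a ∧ (∀ v, φ v = 0 → B v e = 0) ∧
      ∀ u v, B (u + φ u • e) (v + φ v • e) = B u v := by
  obtain ⟨k, ⟨μ, -, h1⟩, h2⟩ := hs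
  obtain ⟨w, φ, e, w0, φ0, e0, ha, hk⟩ := h.sim h2
  have h3 : ¬ Herm.Iso B (LinearMap.ker φ) := fun h => by
    have := two_mul_le_of_iso hB h
    have h6 := LinearMap.finrank_range_add_finrank_ker φ
    have := (LinearMap.range φ).finrank_le
    rw [finrank_self] at this
    omega
  simp only [Herm.Iso, not_forall] at h3
  obtain ⟨x, hx, y, hy, hxy⟩ := h3
  have h4 : ∀ u v, σ w * w * B (u + φ u • e) (v + φ v • e) = μ * B u v := fun u v => by
    rw [← h1, hk, hk, LinearMap.map_smulₛₗ₂, map_smul]; simp only [smul_eq_mul]; ring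
  have h5 : σ w * w = μ := mul_right_cancel₀ hxy (by
    simpa [LinearMap.mem_ker.1 hx, LinearMap.mem_ker.1 hy] using h4 x y)
  have h6 : ∀ u v, B (u + φ u • e) (v + φ v • e) = B u v := fun u v =>
    mul_left_cancel₀ (by simp [w0]) ((h4 u v).trans (by rw [h5]))
  obtain ⟨u, hu⟩ := DFunLike.ne_iff.1 φ0
  exact ⟨φ, e, φ0, e0, ha, fun v hv => by simpa [hv, show φ u ≠ 0 from hu] using h6 v u, h6⟩

theorem R1.not_af {B : LinearMap.BilinForm F V} {a : F} (h : R1 g a) (hB : AF B)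
    (hn : 3 ≤ finrank F V) (ha : a ≠ 0) : ¬ CS B g := fun hs => by
  obtain ⟨φ, e, -, e0, rfl, h1, -⟩ := h.cs hB.ef hn hs
  refine e0 (hB.ef.nd e fun v => hB.ef.zero_symm ?_)
  simpa [hB.alt e] using h1 (v - (φ v / φ e) • e) (by simp [ha])

theorem R1.not_sym {B : LinearMap.BilinForm F V} (h : R1 g 0) (hB : EF B 1) (h2 : (2 : F) ≠ 0)
    (hn : 3 ≤ finrank F V) : ¬ CS B g := fun hs => by
  obtain ⟨φ, e, -, e0, h0, h1, h3⟩ := h.cs hB hn hs
  refine e0 (hB.nd e fun v => hB.zero_symm (by_contra fun hv => ?_))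
  have h4 := h3 v v
  have h5 := hB.symm v e
  simp only [map_add, map_smul, LinearMap.add_apply, LinearMap.smul_apply, h1 e h0, h5, smul_eq_mul,
    RingHom.id_apply] at h4
  exact mul_ne_zero h2 (mul_ne_zero (mt (h1 v) hv) hv) (by linear_combination h4)

variable [Fintype F] (L : Type*) [Field L] [IsAlgClosed L] [Algebra F L]

theorem CS.sy {ψ : L →+* L} (hψ : ∀ a, ψ (algebraMap F L a) = algebraMap F L (σ a)) {a : ℤ}
    (ha : (pw a : L → L) = fun z => (ψ z)⁻¹) (hB : EF B ε) (h : CS B g) : Sy a (ev L g) := by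
  obtain ⟨k, ⟨μ, h0, h1⟩, h2⟩ := h
  have := congrArg (Multiset.map (algebraMap F L μ * ·)) (ev_pair L hψ (f := k) (g := μ⁻¹ • k) B rfl
    (fun w hw => hB.nd w fun v => hB.zero_symm (hw v)) fun v w => by simp [h1, h0])
  rw [← ev_smul', smul_inv_smul₀ h0, Multiset.map_map] at this
  refine ⟨algebraMap F L μ, by simpa using h0, ?_⟩
  rw [Sim.ev L h2, SX]
  exact (Multiset.map_congr rfl fun z _ => congrArg _ (congrFun ha z)).trans this.symm

theorem sim_nonpow (hr : r.Prime) (hc : ¬ ∃ w, w ^ r = c) (hf : f ^ r = c • 1) (hg : g ^ r = c • 1)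
    (hd : finrank F V = finrank F W) : Sim f g := by
  let L := AlgebraicClosure F
  have hi : orderOf (Fintype.card F : ZMod r) = 1 := by_contra fun e => hc (exists_root_of_ne hr e c)
  have c0 : c ≠ 0 := fun e => hc ⟨0, by rw [e, zero_pow hr.ne_zero]⟩
  have h0 : (r : F) ≠ 0 := fun e => by
    haveI : Fact (ringChar F).Prime := ⟨CharP.char_is_prime F _⟩
    obtain rfl := (Nat.prime_dvd_prime_iff_eq Fact.out hr).1 ((CharP.cast_eq_zero_iff F (ringChar F) r).1 e)
    rw [orderOf_char] at hi; exact zero_ne_one hi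
  have key : ∀ M : Multiset L, St (Fintype.card F) M → (∀ z ∈ M, z ^ r = algebraMap F L c) →
      ∃ k : ℕ, M = k • nthRoots r (algebraMap F L c) := fun M h1 h2 =>
    eq_nsmul_nthRoots L (frob_inj (F := F) L) hr.pos (alg_pow_card L c) h1 fun z hz => ⟨h2 z hz, by
      rw [← pd_one hi]
      refine per_root L hr c0 (h2 z hz) fun e => ?_
      obtain ⟨w, rfl⟩ := mem_range_of_pow_card L e
      exact hc ⟨w, (algebraMap F L).injective (by rw [map_pow, h2 _ hz])⟩⟩
  obtain ⟨k, hk⟩ := key _ (st_ev L f) fun _ => pow_eq_of_mem_ev' L hf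
  obtain ⟨l, hl⟩ := key _ (st_ev L g) fun _ => pow_eq_of_mem_ev' L hg
  have := (card_ev L f).trans (hd.trans (card_ev L g).symm)
  rw [hk, hl, Multiset.card_nsmul, Multiset.card_nsmul, card_nthRoots', Nat.mul_left_inj hr.ne_zero] at this
  exact sim_of_ev L (squarefree_X_pow_sub_C h0 c0) (squarefree_X_pow_sub_C h0 c0) (aeval_of_pow_eq hf)
    (aeval_of_pow_eq hg) (by rw [hk, hl, this])

theorem sim_ev1 (h0 : (r : F) ≠ 0) (hf : f ^ r = 1) (hg : g ^ r = 1) (h : ev L f = ev L g) : Sim f g :=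
  sim_of_ev L (squarefree_X_pow_sub_C h0 one_ne_zero) (squarefree_X_pow_sub_C h0 one_ne_zero)
    (aeval_of_pow_eq (by simpa using hf)) (aeval_of_pow_eq (by simpa using hg)) h

theorem card_gl : Nat.card (GL (Fin n) F) = Fintype.card F ^ (∑ j ∈ Finset.range n, j) *
    ∏ j ∈ Finset.range n, (Fintype.card F ^ (j + 1) - 1) := by
  rw [card_GL_field, Fin.prod_univ_eq_prod_range (fun i => Fintype.card F ^ n - Fintype.card F ^ i),
    prod_pow_sub Fintype.card_pos n n le_rfl, Finset.prod_pow_eq_pow_sum, ← Finset.prod_range_reflect]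
  exact congrArg _ (Finset.prod_congr rfl fun j hj => by
    have := Finset.mem_range.1 hj; congr 2; omega)

omit [Fintype F] in
theorem dvd_of_index' {G K : Type*} [Group G] [Finite G] [Group K] {H : Subgroup G} (h : r ∣ H.index)
    (φ : K →* G) (hφ : Function.Injective φ) (hm : ∀ k, φ k ∈ H) {m t : ℕ}
    (e : Nat.card G * t = Nat.card K * m) : r ∣ m := by
  haveI := Finite.of_injective φ hφ
  rw [← φ.range.card_mul_index, ← Nat.card_congr (φ.ofInjective hφ).toEquiv, mul_assoc] at e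
  exact Nat.eq_of_mul_eq_mul_left Nat.card_pos e ▸
    (h.trans (Subgroup.index_dvd_of_le (by rintro _ ⟨k, rfl⟩; exact hm k))).mul_right t

theorem dvd_of_sub {H : Subgroup (GL (Fin n) F)} (h : r ∣ H.index)
    (K : Subgroup ((Fin n → F) ≃ₗ[F] (Fin n → F))) (hm : ∀ g, Orth.glEquiv _ F g ∈ K → g ∈ H)
    {m t : ℕ} (e : Nat.card (GL (Fin n) F) * t = Nat.card K * m) : r ∣ m :=
  dvd_of_index' h ((Orth.glEquiv _ F).symm.toMonoidHom.comp K.subtype)
    ((Orth.glEquiv _ F).symm.injective.comp K.subtype_injective) (fun k => hm _ (by simp)) e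

omit [Fintype F] in
theorem prod_par (u : ℕ → ℕ) (n : ℕ) : ∏ j ∈ Finset.range n, u (j + 1) =
    (∏ j ∈ Finset.range (n / 2), u (2 * (j + 1))) * ∏ j ∈ Finset.range ((n + 1) / 2), u (2 * j + 1) := by
  induction n with
  | zero => simp
  | succ n ih =>
    rw [Finset.prod_range_succ, ih]
    obtain ⟨k, rfl | rfl⟩ := n.even_or_odd'
    · rw [show (2 * k + 1) / 2 = k by omega, show 2 * k / 2 = k by omega,
        show (2 * k + 1 + 1) / 2 = k + 1 by omega, Finset.prod_range_succ, mul_assoc]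
    · rw [show (2 * k + 1) / 2 = k by omega, show (2 * k + 1 + 1) / 2 = k + 1 by omega,
        show (2 * k + 1 + 1 + 1) / 2 = k + 1 by omega, Finset.prod_range_succ (fun j => u (2 * (j + 1))) k, mul_right_comm]
      rfl

omit [Fintype F] in
theorem sum_par (n : ℕ) : ∑ j ∈ Finset.range n, j = n / 2 * ((n - 1) / 2) + n / 2 * ((n + 1) / 2) := by
  have := Finset.sum_range_id_mul_two n
  obtain ⟨k, rfl | rfl⟩ := n.even_or_odd'
  · rcases k with _ | k
    · simp
    rw [show (2 * (k + 1) + 1) / 2 = k + 1 by omega, show 2 * (k + 1) / 2 = k + 1 by omega,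
      show (2 * (k + 1) - 1) / 2 = k by omega]
    rw [show 2 * (k + 1) - 1 = 2 * k + 1 by omega] at this
    linarith
  · rw [show (2 * k + 1) / 2 = k by omega, show (2 * k + 1 + 1) / 2 = k + 1 by omega,
      show (2 * k + 1 - 1) / 2 = k by omega]
    rw [show 2 * k + 1 - 1 = 2 * k by omega] at this
    linarith

theorem der_odd [hr : Fact r.Prime] (h2 : r ≠ 2) (h0 : (r : F) ≠ 0) {j : ℕ}
    (hj : orderOf (Fintype.card F : ZMod r) ∣ 2 * j + 1) (hn : 2 * j + 1 ≤ n) (hn3 : 3 ≤ n)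
    (h6 : ¬ (n = 6 ∧ r = 3))
    (h5 : ¬ ((r = 3 ∨ r = 5) ∧ n = r ∧ padicValNat r (Fintype.card F - 1) = 1))
    {B : LinearMap.BilinForm F (Fin n → F)} (hB : EF B ε) :
    ¬ ∀ (f : End F (Fin n → F)) c, El r f c → CS B f := fun h => by
  have r2 : 2 < r := lt_of_le_of_ne hr.out.two_le h2.symm
  obtain ⟨f, c, hf, hf'⟩ := der (F := F) (AlgebraicClosure F) (a := -1) h2 h0
    (fun x y e => by simpa [pw] using e) (fun e => by
      rw [show orderOf ((-1 : ℤ) : ZMod r) = 2 from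
        orderOf_eq_prime (by simp) (by simpa using neg_one_ne_one r2)] at e
      have := e.trans hj
      omega) ((Nat.le_of_dvd (by omega) hj).trans hn) (by omega) (by omega) h6 h5
  exact hf' (CS.sy (F := F) (σ := RingHom.id F) (AlgebraicClosure F) (ψ := RingHom.id _) (fun _ => rfl) (pw_neg_one _) hB (h f c hf))

theorem sp_two {B : LinearMap.BilinForm F V} (hB : AF B) (hn : 3 ≤ finrank F V) :
    (∀ (f : End F V) c, El 2 f c → CS B f) ↔
      padicValNat 2 (Fintype.card F - 1) ≤ padicValNat 2 (finrank F V) := by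
  obtain ⟨d, hd⟩ := hB.even
  by_cases h2 : (2 : F) = 0
  · haveI : CharP F 2 := CharTwo.of_one_ne_zero_of_two_eq_zero one_ne_zero h2
    refine iff_of_true (fun f c hf => ?_) (by
      rw [padicValNat.eq_zero_of_not_dvd (by
        rw [← orderOf_eq_one_iff', orderOf_char]; exact zero_ne_one)]; exact Nat.zero_le _)
    obtain ⟨w, g, w0, -, rfl, hg⟩ := exists_unip_of_pow hf.ne hf.2.1
    have hN : IsNilpotent (g - 1) := ⟨2, hg⟩
    have h3 := fun a ha => And.intro (jt_pos hN a ha) ((pow_eq_zero_iff_jt hN 2).1 hg a ha)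
    obtain ⟨V', _, _, _, B', N, h1, h4, h5, h6, h7⟩ := real_alt (F := F) _ (jt_pos hN) fun j hj => by
      by_cases e : j = 1
      · have := congrArg Multiset.sum (eq_of_le_two h3)
        rw [sum_jt hN] at this
        simp at this
        exact e ▸ ⟨d - (jt (g - 1)).count 2, by omega⟩
      · rw [Multiset.count_eq_zero_of_notMem fun h => by have := h3 j h; obtain ⟨k, rfl⟩ := hj; omega]
        exact Even.zero
    have s := (sim_iff_jt hN h6).2 h7.symm
    obtain ⟨e, he⟩ := AF.iso ⟨h1, h4 trivial⟩ hB s.finrank_eq.symm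
    exact ((cs_of_iso e he (g := N + 1) (sm_of_im (uIso_iff.1 (by simpa using h5)))).sim
      (by simpa using s.add_one)).smul w0
  refine ⟨fun h => by_contra fun e => ?_, fun h f c hf => ?_⟩
  · obtain ⟨f, c, h1, h3⟩ := exists_refl h2 (by omega) e
    exact h3.not_af hB hn (by simpa using h2) (h f c h1)
  by_cases hc : ∃ w, w ^ 2 = c
  · obtain ⟨w, rfl⟩ := hc
    have w0 : w ≠ 0 := ne_zero_pow two_ne_zero hf.ne
    have h1 : (w⁻¹ • f) ^ 2 = 1 := by rw [_root_.smul_pow, hf.2.1, smul_smul, ← mul_pow]; simp [w0]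
    let L := AlgebraicClosure F
    have h3 := fun z => pow_eq_one_of_mem_ev L h1 (z := z)
    obtain ⟨g, g1, g2⟩ := exists_sg_ev L hB.ef.nondeg hB.alt (N := 2) (by simpa using h2) _ (card_ev L _)
      (st_ev L _) (SX.of_fix fun z hz => inv_eq_of_mul_eq_one_left (by rw [← sq, h3 z hz])) h3 (by
        have e := congrArg LinearMap.det h1
        rw [map_pow, map_one, sq_eq_one_iff] at e
        rw [prod_ev_eq_det, e.resolve_right fun e => (exists_pow_neg h2 (by omega)).1 ⟨w⁻¹, by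
          simpa [hf.1] using e⟩ h, map_one])
    simpa [w0] using (CS.smul ⟨_, sm_of_im g.2, sim_ev1 L (r := 2) (by simpa using h2) h1
      (show subRep _ g ^ 2 = 1 by rw [← map_pow, g1, map_one]) g2.symm⟩ w0)
  obtain ⟨e, he⟩ := (af_hyp d).iso hB (by simp; omega)
  refine (cs_of_iso e he (g := (c • LinearMap.snd F _ _).prod (LinearMap.fst F _ _))
    ⟨-c, neg_ne_zero.2 hf.ne, fun x y => by simp [hypB_apply]; ring⟩).sim
    (sim_nonpow Nat.prime_two hc hf.2.1 (LinearMap.ext fun x => by simp [sq, Prod.ext_iff]) (by simp; omega))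

theorem sp_odd [hr : Fact r.Prime] (h2 : r ≠ 2) {B : LinearMap.BilinForm F (Fin n → F)} (hB : AF B)
    (hn : 4 ≤ n) (h6 : ¬ (n = 6 ∧ r = 3)) {H : Subgroup (GL (Fin n) F)} (h : r ∣ H.index)
    (hH : ∀ g, g ∈ H ↔ Sm B (toLin' g.1)) : ¬ ∀ (f : End F (Fin n → F)) c, El r f c → CS B f := by
  obtain ⟨d, hd⟩ := hB.even
  rw [← two_mul] at hd
  obtain rfl : n = 2 * d := by simpa using hd
  have r3 : 3 ≤ r := lt_of_le_of_ne hr.out.two_le (Ne.symm h2)
  haveI : Fact (ringChar F).Prime := ⟨CharP.char_is_prime F _⟩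
  by_cases hp : r = ringChar F
  · subst hp
    intro h
    obtain ⟨g, g1, g2⟩ := exists_unipotent F (ι := Fin (2 * d)) (s := 3 ::ₘ Multiset.replicate (2 * d - 3) 1)
      (by simp +contextual [Multiset.mem_replicate]) (by simp; omega)
    have g3 : toLin' g.1 ^ ringChar F = (1 : F) • 1 := by
      rw [one_smul, ← sub_eq_zero, ← sub_one_pow_char, pow_eq_zero_iff_jt g1, g2]
      simp +contextual [Multiset.mem_replicate]; omega
    obtain ⟨k, ⟨μ, -, k1⟩, k2⟩ := h _ 1 ⟨det_of_unip g1, g3, fun a e => by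
      rw [e, eq_one_of_unip_smul (e ▸ g1), sub_self, jt_zero] at g2
      exact absurd (Multiset.eq_of_mem_replicate (g2.symm ▸ Multiset.mem_cons_self 3 _)) (by decide)⟩
    haveI : Nontrivial (Fin (2 * d) → F) := nontrivial_of_finrank_pos (R := F) (by omega)
    obtain rfl : μ = 1 := eq_one_of_pow_eq_one hr.out (by rw [orderOf_char]; exact zero_ne_one)
      (by simpa using mul_pow_eq hB.ef k1 (Sim.pow_eq k2 g3))
    have k3 := k2.sub_one.symm.isNilpotent g1
    have := even_count_of_alt hB.ef hB.alt (uIso_iff.2 (by simpa using k1)) k3 (j := 3) (by decide)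
    rw [← (sim_iff_jt g1 k3).1 k2.sub_one, g2] at this
    simp [Multiset.count_replicate] at this
  have := dvd_of_sub h (Herm.UG B) (fun g hg => (hH g).2 (sm_of_im hg)) (t := 1)
    (m := Fintype.card F ^ (d * ((2 * d - 1) / 2)) * ∏ j ∈ Finset.range d, (Fintype.card F ^ (2 * j + 1) - 1)) (by
      rw [hB.card_UG hd, card_gl, prod_par fun j => Fintype.card F ^ j - 1, sum_par,
        show 2 * d / 2 = d by omega, show (2 * d + 1) / 2 = d by omega]; ring)
  obtain ⟨j, j1, j2⟩ := exists_of_dvd_prod hr.out Fintype.card_pos _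
    ((hr.out.dvd_mul.1 this).resolve_left (not_dvd_pow_card hp _))
  exact der_odd h2 (natCast_ne_zero_of_ne hr.out hp) j2 (by omega) (by omega) h6 (by omega) hB.ef

omit [Fintype F] in
theorem af_of {ι : Type} [Fintype ι] [DecidableEq ι] {f : (ι → F) → (ι → F) → F}
    (h : Geo.IsSymplecticForm f) : AF (Max.toBilin h.bilinear) :=
  ⟨⟨fun _ => rfl, Or.inr rfl, fun x y => by simpa using h.skew y x, Max.nd_left h.nondegenerate⟩,
    Max.toBilin_alt h⟩

end Cfsg.Agent.Elv
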