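import Mathlib
import Cfsg.Agent.Elv.Form
import Cfsg.Agent.Elu.Or4
import Cfsg.Agent.Elu.Un2

/-!
Subgroups of orthogonal and unitary type of `SL_n(q)`.
-/

set_option autoImplicit false
set_option backward.isDefEq.respectTransparency false

namespace Cfsg.Agent.Elv

open Module Polynomial Conj Spc Elu Matrix
open Orth (ND IsPlus OG)
open Herm (frob HF add_pow_q inv_frob)
open scoped _root_.Classical MatrixGroups

universe u

variable {F : Type u} [Field F] {V W : Type*} [AddCommGroup V] [Module F V] [AddCommGroup W]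
  [Module F W] {Q : QuadraticForm F V} {Q' : QuadraticForm F W} {f : End F V} {g : End F W}
  {r n : ℕ} {c : F}

theorem cs_of_q (e : Q'.IsometryEquiv Q) (h : IQ Q' g) : CS Q.polarBilin g :=
  let ⟨k, hk⟩ := exists_trQ e g
  ⟨k, sm_of_im (hk.iq h).im, hk.sim⟩

theorem q_of_polar (h2 : (2 : F) ≠ 0) {μ : F} (h : ∀ x y, Q.polarBilin (f x) (f y) = μ * Q.polarBilin x y)
    (x : V) : Q (f x) = μ * Q x := mul_left_cancel₀ h2 (by
  have := h x x
  simp only [QuadraticMap.polarBilin_apply_apply, QuadraticMap.polar_self, nsmul_eq_mul] at this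
  linear_combination this)

theorem mem_quad {ι : Type} [Fintype ι] [DecidableEq ι] (h2 : (2 : F) ≠ 0) (Q : QuadraticForm F (ι → F))
    (g : GL ι F) : g ∈ Geo.quadSimilarityGroup Q ↔ Sm Q.polarBilin (toLin' g.1) :=
  ⟨fun ⟨c, h⟩ => ⟨c, c.ne_zero, fun x y => by
    simp [QuadraticMap.polar, ← mulVec_add, h, mul_sub]⟩, fun ⟨c, h0, h⟩ => ⟨Units.mk0 c h0, q_of_polar h2 h⟩⟩

variable [Fintype F] [FiniteDimensional F V] [FiniteDimensional F W]

theorem odd_card (h2 : (2 : F) ≠ 0) : Fintype.card F % 2 = 1 :=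
  FiniteField.odd_card_of_char_ne_two fun e => h2 (by
    have := CharP.cast_eq_zero F (ringChar F); rwa [e] at this)

theorem two_ne (h : Odd (Fintype.card F)) : (2 : F) ≠ 0 := fun e => by
  haveI : CharP F 2 := CharTwo.of_one_ne_zero_of_two_eq_zero one_ne_zero e
  have := FiniteField.even_card_of_char_two (ringChar.eq F 2)
  obtain ⟨k, hk⟩ := h
  omega

theorem exists_sq_add (h2 : (2 : F) ≠ 0) {t : F} (ht : t ≠ 0) (c : F) : ∃ a b : F, a ^ 2 + t * b ^ 2 = c := by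
  obtain ⟨a, b, h⟩ := FiniteField.exists_root_sum_quadratic (f := (X ^ 2 : F[X]))
    (g := C t * X ^ 2 - C c) (by simp) (by
      rw [degree_sub_C (by rw [degree_C_mul_X_pow _ ht]; norm_num), degree_C_mul_X_pow _ ht]; rfl)
    (odd_card h2)
  exact ⟨a, b, by simp at h; linear_combination h⟩

omit [Fintype F] in
theorem even_of_nonsq (hf : El 2 f c) (hc : ¬ ∃ w, w ^ 2 = c) : Even (finrank F V) := by
  by_contra e
  obtain ⟨k, hk⟩ := Nat.not_even_iff_odd.1 e
  have := congrArg LinearMap.det hf.2.1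
  rw [map_pow, hf.1, LinearMap.det_smul, hk, map_one] at this
  exact hc ⟨c ^ (k + 1), by linear_combination -c * this⟩

theorem exists_sq_sym {B : LinearMap.BilinForm F V} (hB : EF B 1) (h2 : (2 : F) ≠ 0)
    (he : Even (finrank F V)) (hc : c ≠ 0) : ∃ h : End F V, h ^ 2 = c • 1 ∧ Sm B h := by
  haveI := invertibleOfNonzero h2
  obtain ⟨d, hd⟩ := he
  obtain ⟨b₀, hb₀⟩ := LinearMap.BilinForm.exists_orthogonal_basis (B := B) ⟨fun x y => by simpa using hB.symm y x⟩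
  let b : Basis (Fin d ⊕ Fin d) F V := b₀.reindex (Fintype.equivOfCardEq (by simpa using hd))
  have h1 : ∀ i j, B (b i) (b j) = if i = j then B (b i) (b i) else 0 := fun i j => by
    split_ifs with e
    exacts [e ▸ rfl, by simpa [b] using hb₀ ((Equiv.injective _).ne e)]
  have h3 : ∀ i, B (b i) (b i) ≠ 0 := fun i e => b.ne_zero i (hB.nd _ fun y => by
    rw [show B (b i) = 0 from b.ext fun j => by rw [h1, e]; simp]; rfl)
  choose α β h4 using fun i => exists_sq_add h2 (mul_ne_zero (h3 (.inl i)) (h3 (.inr i))) c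
  generalize hD : (fun i => B (b i) (b i)) = D
  simp only [show ∀ i, B (b i) (b i) = D i from congrFun hD] at h1 h4
  obtain ⟨h, k1, k2⟩ : ∃ h : End F V, (∀ i, h (b (.inl i)) = α i • b (.inl i) + (β i * D (.inl i)) • b (.inr i)) ∧
      ∀ i, h (b (.inr i)) = (β i * D (.inr i)) • b (.inl i) - α i • b (.inr i) :=
    ⟨b.constr F (Sum.elim _ _), fun i => b.constr_basis F _ (.inl i), fun i => b.constr_basis F _ (.inr i)⟩
  refine ⟨h, b.ext ?_, c, hc, fun x y => ?_⟩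
  · rintro (i | i) <;> simp [sq, ← h4 i, k1, k2] <;> module
  refine LinearMap.congr_fun₂ (f := B.compl₁₂ _ _) (g := c • B) (LinearMap.ext_basis b b ?_) x y
  rintro (i | i) (j | j) <;> by_cases e : i = j <;> simp [k1, k2, h1, e, ← h4 j] <;> ring

theorem o_two (hQ : ND Q) (h2 : (2 : F) ≠ 0) (hf : El 2 f c) : CS Q.polarBilin f := by
  by_cases hc : ∃ w, w ^ 2 = c
  swap
  · obtain ⟨h, h1, h3⟩ := exists_sq_sym (ef_polar hQ) h2 (even_of_nonsq hf hc) hf.ne
    exact ⟨h, h3, sim_nonpow Nat.prime_two hc hf.2.1 h1 rfl⟩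
  obtain ⟨w, rfl⟩ := hc
  have w0 : w ≠ 0 := ne_zero_pow two_ne_zero hf.ne
  have h1 : (w⁻¹ • f) ^ 2 = 1 := by rw [_root_.smul_pow, hf.2.1, smul_smul, ← mul_pow]; simp [w0]
  rw [← smul_inv_smul₀ w0 f]
  generalize w⁻¹ • f = y at h1
  obtain ⟨U, hU, hN⟩ := exists_nd_sub hQ h2 (Mo y).finrank_le
  obtain ⟨e, -⟩ := trQ_perp hQ iq_one hN (one_inv U)
  have h0 : ((2 : ℕ) : F) ≠ 0 := by simpa using h2
  refine ((cs_of_q e (iq_one.neg.prod iq_one)).sim (sim_ev1 (AlgebraicClosure F) h0 h1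
    (by rw [prodMap_pow_eq_one, _root_.smul_pow]; simp) ?_)).smul w0
  have h3 := e.toLinearEquiv.finrank_eq
  rw [finrank_prod, hU, ← finrank_Fx_add y, add_comm, Nat.add_left_inj] at h3
  rw [ev_res _ (isCompl_Fx h0 h1) (Fx_inv y) (Mo_inv y), res_Fx, res_Mo_sq h1, ev_prodMap]
  simp only [ev_smul', ev_one, hU, h3, add_comm]

theorem o_odd (hQ : ND Q) (ho : Odd (finrank F V)) (hr : Odd r) (h0 : (r : F) ≠ 0) (h1 : f ^ r = 1)
    (h : SX (pw (-1)) (ev (AlgebraicClosure F) f)) : CS Q.polarBilin f := by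
  obtain ⟨M, a, b, hM, h3, h4⟩ := decomp_pm (ev (AlgebraicClosure F) f)
  have h5 := fun z => pow_eq_one_of_mem_ev (AlgebraicClosure F) h1 (z := z)
  have h6 := st_ev (AlgebraicClosure F) f
  have h7 := card_ev (AlgebraicClosure F) f
  rw [hM] at h h5 h6 h7
  obtain rfl : b = 0 := by_contra fun e => e (h4 (by
    simpa [hr.neg_one_pow] using h5 (-1) (by simp [Multiset.mem_replicate, e])))
  simp only [Multiset.replicate_zero, add_zero, add_comm M] at *
  obtain ⟨g, g1, g2, -, -, ⟨B, b1, b2, -⟩, Q', q1, q2⟩ := exists_fpf_ev _ h0 M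
    (St.cancel (St.of_fix fun z hz => by rw [Multiset.eq_of_mem_replicate hz, one_pow]) h6)
    (by simpa [SX, pw] using SX.cancel (SX.of_fix fun z hz => by
      rw [Multiset.eq_of_mem_replicate hz, pw, _root_.one_zpow]) h) (fun z hz => h5 z (by simp [hz])) h3
  have h8 := (ef_of_alt b1 b2).even_of_alt b2
  obtain ⟨Q₁, -, ⟨e⟩⟩ := exists_cpl hQ q1 (k := a) (by simp at h7 ⊢; omega) (by
    rintro rfl
    exact absurd (by simpa [← h7] using h8) (Nat.not_even_iff_odd.2 ho))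
  exact (cs_of_q e (IQ.prod q2 iq_one)).sim (sim_ev1 (AlgebraicClosure F) h0 h1
    (prodMap_pow_eq_one.2 ⟨g1, one_pow _⟩) (by rw [hM, ev_prodMap, g2, ev_one, add_comm]; simp))

theorem orth {p : ℕ} [Fact p.Prime] [CharP F p] [hr : Fact r.Prime] {Q : QuadraticForm F (Fin n → F)}
    (hQ : ND Q) (h2 : (2 : F) ≠ 0) (hn : 3 ≤ n) (h6 : ¬ (n = 6 ∧ r = 3))
    (h : r ∣ (Geo.quadSimilarityGroup Q).index) : (∀ x : SL(n, F),
      (∃ z : F, ((x ^ r : SL(n, F)) : Matrix (Fin n) (Fin n) F) = z • (1 : Matrix (Fin n) (Fin n) F)) →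
      (∀ z : F, (x : Matrix (Fin n) (Fin n) F) ≠ z • (1 : Matrix (Fin n) (Fin n) F)) →
      ∃ P : SL(n, F), P⁻¹ * x * P ∈ (Geo.quadSimilarityGroup Q).comap SpecialLinearGroup.toGL) ↔
    (r = 2 ∨ ((r = 3 ∨ r = 5) ∧ n = r ∧ padicValNat r (Fintype.card F - 1) = 1)) := by
  have hH := mem_quad h2 Q
  have hd : finrank F (Fin n → F) = n := by simp
  by_cases r2 : r = 2
  · subst r2
    exact iff_of_true ((elus_iff (Or.inr rfl)).2 ((elus_form hH).2 fun f c => o_two hQ h2)) (Or.inl rfl)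
  by_cases hp : r = p
  · subst hp
    obtain ⟨f, h1, h3⟩ := exists_tv (F := F) (V := Fin n → F) (p := r) (by omega)
    refine iff_of_false (fun e => h3.not_sym (ef_polar hQ) h2 (by omega) ((elus_form hH).1 (elus_imp e) f 1 h1)) ?_
    rw [padicValNat.eq_zero_of_not_dvd (by rw [← orderOf_eq_one_iff', orderOf_char]; exact zero_ne_one)]
    omega
  have h0 : (r : F) ≠ 0 := natCast_ne_zero_of_ne hr.out hp
  have ro := hr.out.odd_of_ne_two r2
  rw [elus_iff (Or.inl h0), elus_form hH, or_iff_right r2]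
  refine ⟨fun e => by_contra fun h5 => ?_, fun ⟨a1, a2, a3⟩ f c hf => ?_⟩
  swap
  · obtain ⟨w, w0, w1, w2⟩ := sym (AlgebraicClosure F) a1 (hd.trans a2) a3 hf
    simpa [w0] using (o_odd hQ (by rwa [hd, a2]) ro h0 w1 w2).smul (inv_ne_zero w0)
  have h7 := card_OG_U hQ
  rw [hd] at h7
  have := dvd_of_sub h (OG Q) (fun g hg => (hH g).2 (sm_of_im (IQ.im hg))) (t := 2)
    (m := (oT (Fintype.card F) n (¬ IsPlus Q)).natAbs * (Fintype.card F ^ (n / 2 * ((n + 1) / 2)) *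
      ∏ j ∈ Finset.range ((n + 1) / 2), (Fintype.card F ^ (2 * j + 1) - 1))) (by
      rw [← mul_assoc, ← Int.natAbs_natCast (Nat.card (OG Q)), ← Int.natAbs_mul, h7, card_gl,
        prod_par fun j => Fintype.card F ^ j - 1, sum_par, show oP (Fintype.card F) (n / 2) =
          (∏ j ∈ Finset.range (n / 2), (Fintype.card F ^ (2 * (j + 1)) - 1) : ℕ) by
            simp [oP, Nat.cast_sub (Nat.one_le_pow _ _ (Fintype.card_pos (α := F)))], oA]
      simp only [Int.natAbs_mul, Int.natAbs_pow, Int.natAbs_natCast, Int.reduceAbs]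
      ring)
  have i0 := ord_pos h0 hr.out
  obtain h8 | h8 := hr.out.dvd_mul.1 this
  swap
  · obtain ⟨j, j1, j2⟩ := exists_of_dvd_prod hr.out Fintype.card_pos _
      ((hr.out.dvd_mul.1 h8).resolve_left (not_dvd_pow_card hp _))
    exact der_odd r2 h0 j2 (by omega) hn h6 h5 (ef_polar hQ) e
  obtain ⟨s, s1, s2⟩ := oT_hit hr.out (lt_of_le_of_ne hr.out.two_le (Ne.symm r2)) rfl i0
    (Int.natCast_dvd.2 h8)
  have s0 : s ≠ 0 := by rintro rfl; omega
  obtain he | ⟨j, hj⟩ := (orderOf (Fintype.card F : ZMod r)).even_or_odd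
  swap
  · exact der_odd r2 h0 hj.dvd (by
      rw [cc, if_neg (by rw [hj]; simp)] at s1
      have := Nat.le_mul_of_pos_right (2 * orderOf (Fintype.card F : ZMod r)) (Nat.pos_of_ne_zero s0)
      omega) hn h6 h5 (ef_polar hQ) e
  have hi : orderOf (Fintype.card F : ZMod r) ≠ 1 := fun e => by simp [e] at he
  obtain ⟨ζ, hζ⟩ := exists_prim (AlgebraicClosure F) h0
  obtain ⟨t1, t2, t3, t4⟩ := shp_spec _ hr.out hi hζ 0 s
  obtain ⟨f, hf, hf'⟩ := exists_el_of_ne _ hr.out hi _ t1 t2 (n := n)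
    (by rw [← fx_add_nf (q := Fintype.card F), t3, t4, s1, cc, if_pos he, zero_add]) (by rw [t4]; positivity)
  obtain ⟨k, ⟨μ, -, k1⟩, k2⟩ := e f 1 hf
  haveI := hf.nontriv
  have k3 := Sim.pow_eq k2 hf.2.1
  obtain rfl : μ = 1 := eq_one_of_pow_eq_one hr.out hi (by simpa using mul_pow_eq (ef_polar hQ) k1 k3)
  have := plus_fpf hr.out r2 h0 hQ (fun x => by simpa using q_of_polar h2 k1 x) (by simpa using k3)
    (fun x hx => by_contra fun x0 => fx_eq_zero.1 t3 1 (by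
      rw [← hf', Sim.ev _ k2, ← map_one (algebraMap F _)]
      exact mem_ev_of_apply (AlgebraicClosure F) x0 (by simpa using hx))
      (one_pow _)) rfl (hd.trans s1)
  tauto

section
variable {q : ℕ} (hF : Nat.card F = q ^ 2)

/-- a unitary form given as a function -/
def uniB {κ : Type} {f : (κ → F) → (κ → F) → F} (h : Geo.IsUnitaryFormPow q f) :
    (κ → F) →ₛₗ[frob hF] (κ → F) →ₗ[F] F :=
  LinearMap.mk₂'ₛₗ _ _ (fun x y => f y x)
    (fun x y z => by rw [h.herm, h.add_left, add_pow_q hF, ← h.herm, ← h.herm])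
    (fun c x y => by rw [h.herm, h.smul_left, mul_pow, ← h.herm]; rfl)
    (fun x y z => h.add_left _ _ _) fun c x y => h.smul_left _ _ _

theorem uniB_hf {κ : Type} {f : (κ → F) → (κ → F) → F} (h : Geo.IsUnitaryFormPow q f) :
    HF (uniB hF h) :=
  ⟨inv_frob hF, fun x y => (h.herm x y).symm, fun x hx => by
    by_contra h0
    obtain ⟨y, hy⟩ := (h.nondegenerate x h0).1
    exact hy (hx y)⟩

theorem mem_uni {κ : Type} [Fintype κ] [DecidableEq κ] {f : (κ → F) → (κ → F) → F}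
    (h : Geo.IsUnitaryFormPow q f) (g : GL κ F) : g ∈ Geo.similarityGroup f ↔ Sm (uniB hF h) (toLin' g.1) :=
  Iff.trans (exists_congr fun _ => forall_swap) (mem_sim (uniB hF h) g)

variable {hF} {B : V →ₛₗ[frob hF] V →ₗ[F] F}

theorem u_ev (hB : EF B 1) (h0 : (r : F) ≠ 0) (h1 : f ^ r = 1) {a : ℤ} (ha : (-q : ZMod r) = a)
    (h : SX (pw a) (ev (AlgebraicClosure F) f)) : CS B f := by
  have h5 := fun z => pow_eq_one_of_mem_ev (AlgebraicClosure F) h1 (z := z)
  obtain ⟨g, g1, g2, g3⟩ := exists_U_ev _ hB h0 (card_ev _ f) ((map_pw_congr h5 (by rintro rfl; simp at h0)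
    (by simpa using ha)).trans h) h5
  exact ⟨g, sm_of_im g1, sim_ev1 _ h0 h1 g2 g3.symm⟩

theorem u_two (hB : EF B 1) (h2 : (2 : F) ≠ 0) (hf : El 2 f c) : CS B f ↔ ∃ w, w ^ 2 = c := by
  have h3 := two_dvd_succ hF h2
  constructor
  · rintro ⟨k, ⟨μ, μ0, k1⟩, k2⟩
    haveI := hf.nontriv
    have k3 := mul_pow_eq hB k1 (Sim.pow_eq k2 hf.2.1)
    obtain ⟨x, hx⟩ := exists_ne (0 : V)
    obtain ⟨y, hy⟩ := not_forall.1 (mt (hB.nd x) hx)
    have k4 : μ ^ q = μ := mul_right_cancel₀ hy (by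
      rw [← k1, hB.symm (k y), k1, hB.symm y x, map_mul]; simp [Herm.frob_apply])
    obtain ⟨t, rfl⟩ : ∃ t, q = 2 * t + 1 := ⟨q / 2, by omega⟩
    obtain ⟨w, hw⟩ := (FiniteField.isSquare_iff (fun e => h2 (by
      have := CharP.cast_eq_zero F (ringChar F); rwa [e] at this)) hf.ne).2 (mul_right_cancel₀ μ0 (by
        rw [card_sq hF, show (2 * t + 1) ^ 2 / 2 = (2 * t + 1 + 1) * t by
          rw [show (2 * t + 1) ^ 2 = 1 + 2 * ((2 * t + 1 + 1) * t) by ring]; omega, pow_mul, pow_succ c,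
          ← Herm.frob_apply hF, ← k3, ← pow_mul, ← pow_succ, k4, one_mul]))
    exact ⟨w, by rw [hw, sq]⟩
  rintro ⟨w, rfl⟩
  have w0 : w ≠ 0 := ne_zero_pow two_ne_zero hf.ne
  have h1 : (w⁻¹ • f) ^ 2 = 1 := by rw [_root_.smul_pow, hf.2.1, smul_smul, ← mul_pow]; simp [w0]
  simpa [w0] using (u_ev hB (by simpa using h2) h1 (a := 1) (by
    have := (ZMod.natCast_eq_zero_iff _ _).2 h3
    push_cast at this ⊢; linear_combination -this) (SX.of_fix fun z _ => zpow_one z)).smul w0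

end

theorem el_two_iff (h2 : (2 : F) ≠ 0) (hn : 0 < n) :
    (∀ (f : End F (Fin n → F)) c, El 2 f c → ∃ w, w ^ 2 = c) ↔ Cnd 2 n (Fintype.card F) := by
  have hi : orderOf (Fintype.card F : ZMod 2) = 1 := orderOf_eq_one_iff'.2 (by have := odd_card h2; omega)
  let L := AlgebraicClosure F
  refine ⟨fun h => by_contra fun e => ?_, fun h f c hf => by_contra fun e => ?_⟩
  · obtain ⟨f, c, hf, h1⟩ := exists_of_not_cnd L Nat.prime_two hi hn e
    obtain ⟨w, rfl⟩ := h f c hf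
    obtain ⟨z, hz⟩ := Multiset.card_pos_iff_exists_mem.1 (show 0 < (ev L f).card by simpa [card_ev])
    exact fx_eq_zero.1 h1 z hz (fix_of_fix L Nat.prime_two hi (w := algebraMap F L w)
      (by simpa using ne_zero_pow two_ne_zero hf.ne) (by rw [pow_eq_of_mem_ev' L hf.2.1 hz, map_pow])
      (alg_pow_card L w))
  refine (not_cnd_of_fx L Nat.prime_two hi hf (fx_eq_zero.2 fun z hz h1 => ?_)).1 (by simpa using h)
  obtain ⟨w, rfl⟩ := mem_range_of_pow_card L h1
  exact e ⟨w, (algebraMap F L).injective (by rw [map_pow, pow_eq_of_mem_ev' L hf.2.1 hz])⟩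

omit [Fintype F] in
theorem val_sq [Fact r.Prime] {q : ℕ} (hq : 2 ≤ q) :
    padicValNat r (q ^ 2 - 1) = padicValNat r (q + 1) + padicValNat r (q - 1) := by
  rw [← padicValNat.mul (by omega) (by omega), ← Nat.sq_sub_sq, one_pow]

theorem unit {p q : ℕ} [Fact p.Prime] [CharP F p] [hr : Fact r.Prime] (hF : Nat.card F = q ^ 2)
    {B : (Fin n → F) →ₛₗ[frob hF] (Fin n → F) →ₗ[F] F} (hB : HF B) (hn : 3 ≤ n) (hrp : r = 2 ∨ r ≠ p)
    (h6 : ¬ (n = 6 ∧ r = 3)) {H : Subgroup (GL (Fin n) F)} (h : r ∣ H.index)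
    (hH : ∀ g, g ∈ H ↔ Sm B (toLin' g.1)) : (∀ (f : End F (Fin n → F)) c, El r f c → CS B f) ↔
    ((r = 2 ∧ (p = 2 ∨ padicValNat 2 n ≤ padicValNat 2 (Fintype.card F - 1))) ∨
      ((r = 3 ∨ r = 5) ∧ n = r ∧ padicValNat r (q - 1) = 1)) := by
  have hE := ef_of_hf hB
  have hq := Herm.two_le_of_card hF
  by_cases r2 : r = 2
  · subst r2
    by_cases p2 : p = 2
    · subst p2
      refine iff_of_true (fun f c hf => ?_) (by simp)
      obtain ⟨w, g, w0, -, rfl, hg⟩ := exists_unip_of_pow hf.ne hf.2.1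
      obtain ⟨k, k1, k2⟩ := exists_of_isU hE (isU_unip ⟨2, hg⟩) rfl
      exact CS.smul ⟨k, sm_of_im k1, k2⟩ w0
    have h2 : (2 : F) ≠ 0 := by simpa using natCast_ne_zero_of_ne (F := F) Nat.prime_two (Ne.symm p2)
    have h4 : Fintype.card F % 4 = 1 := by
      obtain ⟨t, rfl⟩ : ∃ t, q = 2 * t + 1 := ⟨q / 2, by have := two_dvd_succ hF h2; omega⟩
      rw [card_sq hF, show (2 * t + 1) ^ 2 = 1 + 4 * (t * t + t) by ring]; omega
    rw [forall₃_congr fun _ _ hf => u_two hE h2 hf, el_two_iff h2 (by omega)]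
    simp [Cnd, h4, p2]
  have hp := hrp.resolve_left r2
  have h0 : (r : F) ≠ 0 := natCast_ne_zero_of_ne hr.out hp
  have r3 : 2 < r := lt_of_le_of_ne hr.out.two_le (Ne.symm r2)
  have hv := val_sq (r := r) hq
  rw [← card_sq hF] at hv
  have hz : ∀ k : ℕ, (k : ZMod r) ≠ 0 → padicValNat r k = 0 := fun k h =>
    padicValNat.eq_zero_of_not_dvd (mt (ZMod.natCast_eq_zero_iff _ _).2 h)
  rw [or_iff_right fun e => r2 e.1]
  refine ⟨fun e => by_contra fun h5 => ?_, fun ⟨a1, a2, a3⟩ f c hf => ?_⟩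
  swap
  · have q1 : (q : ZMod r) = 1 := by
      simpa using orderOf_eq_one_iff.1 (Nat.dvd_one.1 ((dvd_pow_sub_one_iff (j := 1) (by omega)).1
        (by simpa using dvd_of_one_le_padicValNat a3.ge)))
    rw [hz (q + 1) (by simpa [q1, ← eq_neg_iff_add_eq_zero] using (neg_one_ne_one r3).symm), a3] at hv
    obtain ⟨w, w0, w1, w2⟩ := sym (AlgebraicClosure F) a1 (by simpa using a2) hv hf
    simpa [w0] using (u_ev hE h0 w1 (by simp [q1]) w2).smul (inv_ne_zero w0)
  have := dvd_of_sub h (Herm.UG B) (fun g hg => (hH g).2 (sm_of_im hg)) (t := 1)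
    (m := q ^ (∑ j ∈ Finset.range n, j) * ∏ j ∈ Finset.range n,
      if Even j then q ^ (j + 1) - 1 else q ^ (j + 1) + 1) (by
      rw [hB.card_UG' hF, ordU_eq, card_gl, card_sq hF, finrank_fin_fun, mul_mul_mul_comm,
        ← Finset.prod_mul_distrib, mul_one, ← pow_mul, two_mul, pow_add]
      refine congrArg _ (Finset.prod_congr rfl fun j _ => ?_)
      rw [← pow_mul, mul_comm 2, pow_mul, ← one_pow 2, Nat.sq_sub_sq, one_pow, uu]
      split_ifs
      exacts [rfl, mul_comm _ _])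
  obtain ⟨j, j1, j2⟩ := (Prime.dvd_finset_prod_iff hr.out.prime _).1
    ((hr.out.dvd_mul.1 this).resolve_left (not_dvd_pow_q hF hp _))
  have j3 : (-q : ZMod r) ^ (j + 1) = -1 := by
    rw [← ZMod.natCast_eq_zero_iff] at j2
    split_ifs at j2 with e
    · rw [Nat.cast_sub (Nat.one_le_pow _ _ (by omega)), sub_eq_zero] at j2
      simpa [e.add_one.neg_pow] using j2
    · simpa [(Nat.not_even_iff_odd.1 e).add_one.neg_pow, eq_neg_iff_add_eq_zero] using j2
  have j4 : orderOf (Fintype.card F : ZMod r) ∣ j + 1 := orderOf_dvd_of_pow_eq_one (by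
    rw [card_sq hF, Nat.cast_pow, ← neg_sq, ← pow_mul, mul_comm, pow_mul, j3]; simp)
  have j5 : ¬ orderOf (-q : ZMod r) ∣ j + 1 := fun e =>
    neg_one_ne_one r3 (j3.symm.trans (orderOf_dvd_iff_pow_eq_one.1 e))
  obtain ⟨f, c, hf, hf'⟩ := der (F := F) (AlgebraicClosure F) (a := -q) r2 h0 (inj_chi hF _)
    (fun e => j5 (by simpa using e.trans j4)) (n := n)
    ((Nat.le_of_dvd (by omega) j4).trans (Finset.mem_range.1 j1)) (by omega) (by omega) h6
    fun ⟨a1, a2, a3⟩ => h5 ⟨a1, a2, by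
      rw [hz (q + 1) fun e => j5 (by
        rw [show (-q : ZMod r) = 1 by push_cast at e; linear_combination -e]; simp)] at hv
      omega⟩
  obtain ⟨ψ, ψ1, ψ2⟩ := exists_psi hF (AlgebraicClosure F)
  exact hf' (CS.sy _ ψ1 ψ2 hE (e f c hf))

end Cfsg.Agent.Elv
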