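import Mathlib
import Cfsg.Agent.Elv.OU
import Cfsg.Agent.Classical.SLBasic

/-!
Subfield subgroups of `SL_n(q)`.
-/

set_option autoImplicit false
set_option backward.isDefEq.respectTransparency false

namespace Cfsg.Agent.Elv

open Module Polynomial Conj Spc Elu Matrix
open scoped _root_.Classical MatrixGroups

universe u

variable {F : Type u} [Field F] {F₀ : Subfield F} {r n : ℕ} {c : F} {f : End F (Fin n → F)}

theorem mem_sub (g : GL (Fin n) F) : g ∈ Geo.subfieldSubgroup F₀ 1 ↔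
    ∃ a : F, a ≠ 0 ∧ ∃ A : Matrix (Fin n) (Fin n) F₀, g.1 = a • A.map F₀.subtype := by
  haveI : (Geo.scalars (Fin n) F).Normal := ⟨fun x hx g => by
    obtain ⟨c, hc⟩ := (Geo.mem_scalars_iff x).1 hx
    exact (Geo.mem_scalars_iff _).2 ⟨c, by simp [hc]⟩⟩
  rw [Geo.subfieldSubgroup, map_one]
  erw [Subgroup.map_id]
  rw [← SetLike.mem_coe, Subgroup.mul_normal]
  constructor
  · rintro ⟨_, ⟨k, rfl⟩, z, hz, rfl⟩
    obtain ⟨c, hc⟩ := (Geo.mem_scalars_iff z).1 hz
    exact ⟨c, c.ne_zero, k.1, by simp [hc]⟩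
  rintro ⟨a, ha, A, h⟩
  have : A.det ≠ 0 := fun e => g.det_ne_zero (by
    rw [h, det_smul, ← RingHom.mapMatrix_apply, ← RingHom.map_det, e]; simp)
  refine ⟨_, ⟨GeneralLinearGroup.mkOfDetNeZero A this, rfl⟩, _, ⟨Units.mk0 a ha, rfl⟩, Units.ext ?_⟩
  rw [h, Units.val_mul, ← mul_one (a • _), smul_mul_assoc, ← mul_smul_comm, smul_one_eq_diagonal]
  rfl

variable (F₀) in
/-- realisable over the subfield up to scalars -/
def SF (f : End F (Fin n → F)) : Prop :=
  ∃ a : F, a ≠ 0 ∧ ∃ A : Matrix (Fin n) (Fin n) F₀, Sim f (a • toLin' (A.map F₀.subtype))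

theorem cj_sub (hf : El r f c) : Cj (Geo.subfieldSubgroup (ι := Fin n) F₀ 1) f ↔ SF F₀ f := by
  rw [cj_iff (fun h => ∃ a : F, a ≠ 0 ∧ ∃ A : Matrix (Fin n) (Fin n) F₀, h = a • toLin' (A.map F₀.subtype))
    (fun g => by simp only [mem_sub, ← map_smul, toLin'.injective.eq_iff]) (by rw [hf.1]; exact one_ne_zero)]
  exact ⟨fun ⟨_, ⟨a, h1, A, h2⟩, h3⟩ => ⟨a, h1, A, h2 ▸ h3⟩, fun ⟨a, h1, A, h3⟩ => ⟨_, ⟨a, h1, A, rfl⟩, h3⟩⟩

theorem SF.smul (h : SF F₀ f) {w : F} (hw : w ≠ 0) : SF F₀ (w • f) :=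
  let ⟨a, h1, A, h2⟩ := h
  ⟨w * a, mul_ne_zero hw h1, A, by rw [mul_smul]; exact h2.smul w⟩

theorem ev_sub (A : Matrix (Fin n) (Fin n) F₀) :
    ev (AlgebraicClosure F) (toLin' (A.map F₀.subtype)) = ev (AlgebraicClosure F) (toLin' A) := by
  rw [ev_toLin', ev_toLin', Matrix.map_map]; rfl

theorem exists_nil (F₀ : Subfield F) (hf : IsNilpotent f) :
    ∃ A : Matrix (Fin n) (Fin n) F₀, Sim f (toLin' (A.map F₀.subtype)) := by
  obtain ⟨t, d, -, s⟩ := exists_jordan hf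
  obtain ⟨A, hA⟩ := exists_matrix_sim (nil F₀ d) (ι := Fin n) (by
    rw [finrank_nil, ← finrank_nil (F := F), ← s.finrank_eq]; simp)
  have e : ∀ j, toLin' (A.map F₀.subtype) ^ j = toLin' ((A ^ j).map F₀.subtype) := fun j => by
    rw [← toLin'_pow', Matrix.map_pow]
  obtain ⟨k, hk⟩ := hA.symm.isNilpotent (isNilpotent_nil d)
  refine ⟨A, sim_of_nilpotent hf ⟨k, ?_⟩ fun j => ?_⟩
  · rw [← toLin'_pow', map_eq_zero_iff _ toLin'.injective] at hk
    rw [e, hk]; simp
  · rw [e, finrank_ker_toLin', rank_map, ← finrank_ker_toLin', toLin'_pow', ← (hA.pow j).finrank_ker,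
      (s.pow j).finrank_ker, finrank_ker_nil_pow, finrank_ker_nil_pow]

theorem sf_unip (hf : IsNilpotent (f - 1)) : SF F₀ f :=
  let ⟨A, h⟩ := exists_nil F₀ hf
  ⟨1, one_ne_zero, A + 1, by simpa [Matrix.map_add, End.one_eq_id] using h.add_one⟩

theorem det_sq {V : Type*} [AddCommGroup V] [Module F V] [FiniteDimensional F V] {N c : End F V}
    (h : LinearMap.range N = LinearMap.ker N) (hc : c * N = N * c) : ∃ s, s ^ 2 = LinearMap.det c := by
  have h1 : ∀ v, c (N v) = N (c v) := LinearMap.congr_fun hc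
  have h2 : LinearMap.ker N ≤ (LinearMap.ker N).comap c := fun v hv => by
    simp [← h1, LinearMap.mem_ker.1 hv]
  refine ⟨_, (sq _).trans ((LinearMap.det_eq_det_mul_det _ c h2).trans (congrArg _ (Sim.det_eq
    ⟨N.quotKerEquivRange.trans (LinearEquiv.ofEq _ _ h), fun v => ?_⟩))).symm⟩
  obtain ⟨v, rfl⟩ := Submodule.Quotient.mk_surjective _ v
  exact Subtype.ext (h1 v).symm

theorem sl_of_cj' {H : Subgroup (GL (Fin n) F)} {x : SL(n, F)} (h : Cj H (toLin' x.1))
    (hd : ∀ d : F, d ≠ 0 → ∃ c : End F (Fin n → F), c * toLin' x.1 = toLin' x.1 * c ∧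
      ∃ k ∈ H, k.1.det * LinearMap.det c = d) : ∃ P : SL(n, F), P⁻¹ * x * P ∈ H.comap SpecialLinearGroup.toGL := by
  obtain ⟨h, h1, h2⟩ := h
  obtain ⟨g, rfl⟩ := isConj_iff.1 (isConj_GL_iff_sim (A := SpecialLinearGroup.toGL x).2 h2)
  obtain ⟨c, hc, k, hk, hd⟩ := hd (g⁻¹).1.det (g⁻¹).det_ne_zero
  obtain ⟨c, rfl⟩ := toLin'.surjective c
  rw [← toLin'_mul', ← toLin'_mul', toLin'.injective.eq_iff] at hc
  rw [LinearMap.det_toLin'] at hd
  let c' := GeneralLinearGroup.mkOfDetNeZero c (right_ne_zero_of_mul (hd ▸ (g⁻¹).det_ne_zero))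
  have hc' : c' * SpecialLinearGroup.toGL x = SpecialLinearGroup.toGL x * c' := Units.ext hc
  obtain ⟨P, hP⟩ := range_toGL.ge (show k * g * c' ∈ Geo.specialLinear (Fin n) F from Units.ext (by
    change (k.1 * g.1 * c).det = 1
    rw [det_mul, det_mul, mul_right_comm, hd, ← det_mul, ← Units.val_mul, inv_mul_cancel, Units.val_one, det_one]))
  refine ⟨P⁻¹, ?_⟩
  rw [Subgroup.mem_comap, map_mul, map_mul, inv_inv, map_inv, hP, mul_assoc _ c', hc']
  convert H.mul_mem (H.mul_mem hk h1) (H.inv_mem hk) using 1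
  group

variable [Fintype F] [Fintype F₀]

theorem SF.sy (h : SF F₀ f) : Sy (Fintype.card F₀) (ev (AlgebraicClosure F) f) := by
  obtain ⟨a, h1, A, h2⟩ := h
  have h3 : algebraMap F (AlgebraicClosure F) a ≠ 0 := by simpa using h1
  refine ⟨algebraMap F _ a / algebraMap F _ a ^ Fintype.card F₀, by simp [h1], ?_⟩
  rw [Sim.ev _ h2, ev_smul', ev_sub, SX]
  conv_rhs => rw [← st_ev (AlgebraicClosure F) (toLin' A)]
  rw [Multiset.map_map, Multiset.map_map]
  exact Multiset.map_congr rfl fun z _ => by simp [mul_pow]; field_simp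

theorem sf_of_ev (h0 : (r : F) ≠ 0) (h1 : f ^ r = 1) {a : ℤ} (ha : (Fintype.card F₀ : ZMod r) = a)
    (h : SX (pw a) (ev (AlgebraicClosure F) f)) : SF F₀ f := by
  have h5 := fun z => pow_eq_one_of_mem_ev (AlgebraicClosure F) h1 (z := z)
  obtain ⟨g, g1, g2⟩ := exists_end_pow (F := F₀) (AlgebraicClosure F) _ (by
      rw [St, ← pw_card]
      exact (map_pw_congr h5 (by rintro rfl; simp at h0) (by simpa using ha)).trans h) (r := r) (c := 1)
    (by simpa using h5) (ι := Fin n) (by simp [card_ev])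
  obtain ⟨A, rfl⟩ := toLin'.surjective g
  refine ⟨1, one_ne_zero, A, ?_⟩
  rw [one_smul]
  refine sim_ev1 (AlgebraicClosure F) h0 h1 ?_ (by rw [ev_sub, g2])
  rw [← toLin'_pow', ← Matrix.map_pow, (toLin'_eq_smul_iff _ _ _).1 g1]
  simp [toLin'_one, End.one_eq_id]

theorem sq_of_mem (h2 : (2 : F) ≠ 0) (hq : Fintype.card F = Fintype.card F₀ ^ 2) (a : F₀) :
    ∃ w : F, w ^ 2 = a := by
  by_cases h : a = 0
  · exact ⟨0, by simp [h]⟩
  obtain ⟨t, ht⟩ : ∃ t, Fintype.card F₀ = 2 * t + 1 := ⟨_, (Nat.div_add_mod _ 2).symm.trans (by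
    rw [odd_card (F := F₀) fun e => h2 (congrArg Subtype.val e)])⟩
  obtain ⟨w, hw⟩ := (FiniteField.isSquare_iff (F := F) (fun e => h2 (by
    have := CharP.cast_eq_zero F (ringChar F); rwa [e] at this)) (a := a) (by simpa using h)).2 (by
      have := congrArg Subtype.val (FiniteField.pow_card_sub_one_eq_one a h)
      rw [hq, ht, show (2 * t + 1) ^ 2 / 2 = (2 * t + 1 - 1) * (t + 1) by
        rw [show (2 * t + 1) ^ 2 = 1 + 2 * (2 * t * (t + 1)) by ring]; simp; omega, pow_mul, ← ht]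
      simp only [SubmonoidClass.coe_pow] at this
      simp [this])
  exact ⟨w, by rw [hw, sq]⟩

theorem exists_nonsq (h2 : (2 : F) ≠ 0) {k : ℕ} (hk : Odd k) (hq : Fintype.card F = Fintype.card F₀ ^ k) :
    ∃ a : F₀, ¬ IsSquare (a : F) := by
  obtain ⟨a, ha⟩ := FiniteField.exists_nonsquare (F := F₀) fun e => h2 (by
    have := ringChar.Nat.cast_ringChar (R := F₀); rw [e] at this; exact congrArg Subtype.val this)
  refine ⟨a, fun ⟨s, hs⟩ => ha ?_⟩
  have h1 := congrArg (Algebra.norm F₀) hs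
  obtain ⟨j, rfl⟩ := hk
  rw [show (a : F) = algebraMap F₀ F a from rfl, Algebra.norm_algebraMap, map_mul,
    Nat.pow_right_injective (one_lt_card (F := F₀)) ((Module.card_eq_pow_finrank (K := F₀)).symm.trans hq)] at h1
  have a0 : a ≠ 0 := by rintro rfl; simp at ha
  exact ⟨Algebra.norm F₀ s / a ^ j, by field_simp; linear_combination h1⟩

omit [Fintype F₀] in
theorem card_sl : Nat.card SL(n + 1, F) = Fintype.card F ^ (∑ j ∈ Finset.range (n + 1), j) *
    ∏ j ∈ Finset.range n, (Fintype.card F ^ (j + 2) - 1) := by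
  have := Classical.SLBasic.card_SL (F := F) (n + 1) (by omega)
  rw [← Classical.SLBasic.card_GL, card_gl, Finset.prod_range_succ', Nat.card_eq_fintype_card (α := F),
    zero_add, pow_one, ← mul_assoc, mul_comm] at this
  exact Nat.eq_of_mul_eq_mul_right (by have := one_lt_card (F := F); omega) this

theorem ex_sub {p k : ℕ} [Fact p.Prime] [CharP F p] [hr : Fact r.Prime] (hp : r ≠ p) (hn : 0 < n) (hk : 0 < k)
    (hq : Fintype.card F = Fintype.card F₀ ^ k) (h : r ∣ ((Geo.subfieldSubgroup F₀ 1).comap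
      (SpecialLinearGroup.toGL : SL(n, F) →* GL (Fin n) F)).index) : ∃ j, 2 ≤ j ∧ j ≤ n ∧
      (Fintype.card F : ZMod r) ^ j = 1 ∧ ((Fintype.card F₀ : ZMod r) ^ j = 1 → r ∣ k) := by
  obtain ⟨n, rfl⟩ := Nat.exists_eq_succ_of_ne_zero hn.ne'
  obtain ⟨k, rfl⟩ := Nat.exists_eq_succ_of_ne_zero hk.ne'
  have := dvd_of_index h (SpecialLinearGroup.map F₀.subtype) (fun x y e => Subtype.ext
      (Matrix.map_injective F₀.subtype.injective (congrArg Subtype.val e)))
    (fun x => (mem_sub _).2 ⟨1, one_ne_zero, x.1, (one_smul _ _).symm⟩)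
    (m := Fintype.card F₀ ^ (k * ∑ j ∈ Finset.range (n + 1), j) * ∏ j ∈ Finset.range n,
      ∑ i ∈ Finset.range (k + 1), (Fintype.card F₀ ^ (j + 2)) ^ i) (by
      rw [card_sl, card_sl, mul_mul_mul_comm, ← Finset.prod_mul_distrib, hq, ← pow_mul, ← pow_add]
      congr 1
      · congr 1; rw [Nat.succ_eq_add_one]; ring
      refine Finset.prod_congr rfl fun j _ => ?_
      rw [mul_comm, geom_sum_mul_of_one_le (Nat.one_le_pow _ _ Fintype.card_pos), ← pow_mul, ← pow_mul, mul_comm])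
  obtain ⟨j, j1, j2⟩ := (Prime.dvd_finset_prod_iff hr.out.prime _).1
    ((hr.out.dvd_mul.1 this).resolve_left (not_dvd_pow_card hp _))
  rw [← ZMod.natCast_eq_zero_iff] at j2
  push_cast at j2
  refine ⟨j + 2, by omega, by have := Finset.mem_range.1 j1; omega, ?_, fun e => ?_⟩
  · rw [hq, Nat.cast_pow, ← pow_mul, mul_comm, pow_mul, ← sub_eq_zero, ← geom_sum_mul, j2, zero_mul]
  · rw [← ZMod.natCast_eq_zero_iff]; simpa [e] using j2

omit [Fintype F₀] in
theorem exists_root_of_cnd (hr : r.Prime) (hf : El r f c)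
    (h : orderOf (Fintype.card F : ZMod r) = 1 → Cnd r n (Fintype.card F)) : ∃ w, w ^ r = c := by
  by_cases hi : orderOf (Fintype.card F : ZMod r) = 1
  swap
  · exact exists_root_of_ne hr hi c
  let L := AlgebraicClosure F
  by_contra e
  refine (not_cnd_of_fx L hr hi hf (fx_eq_zero.2 fun z hz h1 => ?_)).1 (by simpa using h hi)
  obtain ⟨w, rfl⟩ := mem_range_of_pow_card L h1
  exact e ⟨w, (algebraMap F L).injective (by rw [map_pow, pow_eq_of_mem_ev' L hf.2.1 hz])⟩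

theorem sf_of_root (h0 : (r : F) ≠ 0) (hf : El r f c) (h : ∃ w, w ^ r = c)
    (ha : (Fintype.card F₀ : ZMod r) = Fintype.card F) : SF F₀ f := by
  obtain ⟨w, rfl⟩ := h
  have w0 : w ≠ 0 := ne_zero_pow (by rintro rfl; simp at h0) hf.ne
  simpa [w0] using (sf_of_ev (F₀ := F₀) (f := w⁻¹ • f) h0 (by
    rw [_root_.smul_pow, hf.2.1, smul_smul, ← mul_pow]; simp [w0]) (a := Fintype.card F) (by simpa using ha)
    (by rw [pw_card]; exact st_ev _ _)).smul w0

theorem sub_two {p k : ℕ} [Fact p.Prime] [CharP F p] (hn : 0 < n) (hk : k.Prime)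
    (hq : Fintype.card F = Fintype.card F₀ ^ k) (h : 2 ∣ ((Geo.subfieldSubgroup F₀ 1).comap
      (SpecialLinearGroup.toGL : SL(n, F) →* GL (Fin n) F)).index) :
    (∀ (f : End F (Fin n → F)) c, El 2 f c → Cj (Geo.subfieldSubgroup (ι := Fin n) F₀ 1) f) ↔
      (Odd (Fintype.card F) → k = 2 ∧ padicValNat 2 n ≤ padicValNat 2 (Fintype.card F - 1)) := by
  rw [forall₃_congr fun _ _ => cj_sub]
  by_cases p2 : 2 = p
  · subst p2
    refine iff_of_true (fun f c hf => ?_) fun h => absurd (CharP.cast_eq_zero F 2) (by simpa using two_ne h)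
    obtain ⟨w, g, w0, -, rfl, hg⟩ := exists_unip_of_pow hf.ne hf.2.1
    exact (sf_unip ⟨2, hg⟩).smul w0
  have h2 : (2 : F) ≠ 0 := by simpa using natCast_ne_zero_of_ne (F := F) Nat.prime_two p2
  have h3 := odd_card h2
  have h4 := odd_card (F := F₀) fun e => h2 (congrArg Subtype.val e)
  have h5 : (Fintype.card F₀ : ZMod 2) = 1 := by rw [← ZMod.natCast_mod, h4, Nat.cast_one]
  obtain ⟨j, -, -, -, hj⟩ := ex_sub p2 hn hk.pos hq h
  obtain rfl := (Nat.prime_dvd_prime_iff_eq Nat.prime_two hk).1 (hj (by simp [h5]))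
  have h6 : Fintype.card F % 4 = 1 := by
    obtain ⟨t, ht⟩ : ∃ t, Fintype.card F₀ = 2 * t + 1 := ⟨Fintype.card F₀ / 2, by omega⟩
    rw [hq, ht, show (2 * t + 1) ^ 2 = 1 + 4 * (t * t + t) by ring]; omega
  rw [forall₃_congr (q := fun _ c _ => ∃ w, w ^ 2 = c), el_two_iff h2 hn]
  · simp [Cnd, h6, Nat.odd_iff, h3]
  refine fun f c hf => ⟨fun ⟨a, a0, A, e⟩ => ?_, fun e => sf_of_root (by simpa using h2) hf e (by simp [hq, h5])⟩
  have := Sim.pow_eq e hf.2.1
  rw [← map_smul, toLin'_eq_smul_iff, _root_.smul_pow, ← Matrix.map_pow] at this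
  obtain ⟨w, hw⟩ := sq_of_mem h2 hq ((A ^ 2) ⟨0, hn⟩ ⟨0, hn⟩)
  exact ⟨a * w, by simpa [mul_pow, hw] using congrFun (congrFun this ⟨0, hn⟩) ⟨0, hn⟩⟩

theorem sub_odd {p k : ℕ} [Fact p.Prime] [CharP F p] [hr : Fact r.Prime] (hn : 2 ≤ n) (hk : k.Prime)
    (hq : Fintype.card F = Fintype.card F₀ ^ k) (r2 : r ≠ 2) (hp : r ≠ p) (h6 : ¬ (n = 6 ∧ r = 3))
    (hg : r = k → r ∣ Fintype.card F₀ - 1 → padicValNat r n ≤ padicValNat r (Fintype.card F - 1))
    (h : r ∣ ((Geo.subfieldSubgroup F₀ 1).comap (SpecialLinearGroup.toGL : SL(n, F) →* GL (Fin n) F)).index) :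
    (∀ (f : End F (Fin n → F)) c, El r f c → Cj (Geo.subfieldSubgroup (ι := Fin n) F₀ 1) f) ↔
      (r = k ∨ (k = 2 ∧ r = n ∧ (n = 3 ∨ n = 5) ∧ padicValNat r (Fintype.card F₀ + 1) = 1)) := by
  rw [forall₃_congr fun _ _ => cj_sub]
  have h0 : (r : F) ≠ 0 := natCast_ne_zero_of_ne hr.out hp
  have r3 : 2 < r := lt_of_le_of_ne hr.out.two_le (Ne.symm r2)
  by_cases e : r = k
  · subst e
    have h1 : (Fintype.card F₀ : ZMod r) = Fintype.card F := by simp [hq]
    exact iff_of_true (fun f c hf => sf_of_root h0 hf (exists_root_of_cnd hr.out hf fun hi =>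
      ⟨hg rfl (orderOf_eq_one_iff'.1 (h1 ▸ hi)), fun e => absurd e r2⟩) h1) (Or.inl rfl)
  have hz : ¬ (Fintype.card F₀ : ZMod r) = 1 → padicValNat r (Fintype.card F₀ - 1) = 0 := fun h =>
    padicValNat.eq_zero_of_not_dvd fun e => h (orderOf_eq_one_iff.1 (orderOf_eq_one_iff'.2 e))
  have hv := val_sq (r := r) (one_lt_card (F := F₀))
  rw [or_iff_right e]
  refine ⟨fun H => by_contra fun h5 => ?_, fun ⟨a1, a2, a3, a4⟩ f c hf => ?_⟩
  swap
  · subst a1 a2
    have q1 : (Fintype.card F₀ : ZMod r) = -1 := by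
      simpa [eq_neg_iff_add_eq_zero] using (ZMod.natCast_eq_zero_iff _ _).2 (dvd_of_one_le_padicValNat a4.ge)
    rw [hz (q1 ▸ neg_one_ne_one r3), a4, ← hq] at hv
    obtain ⟨w, w0, w1, w2⟩ := sym (AlgebraicClosure F) a3 (by simp) hv hf
    simpa [w0] using (sf_of_ev (F₀ := F₀) h0 w1 (by simp [q1]) w2).smul (inv_ne_zero w0)
  obtain ⟨j, j1, j2, j3, j4⟩ := ex_sub hp (by omega) hk.pos hq h
  have j5 := mt j4 (mt (Nat.prime_dvd_prime_iff_eq hr.out hk).1 e)
  have j6 := orderOf_dvd_of_pow_eq_one j3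
  obtain ⟨f, c, hf, hf'⟩ := der (F := F) (AlgebraicClosure F) (a := Fintype.card F₀) r2 h0
    (inj_pw_card _) (fun e => j5 (orderOf_dvd_iff_pow_eq_one.1 (by simpa using e.trans j6))) (n := n)
    ((Nat.le_of_dvd (by omega) j6).trans j2) hn (fun e e' => j5 (by
      rw [show j = 2 by omega, show (Fintype.card F₀ : ZMod r) = -1 by simpa using e']; simp)) h6
    fun ⟨a1, a2, a3⟩ => h5 (by
      have q1 : (Fintype.card F₀ : ZMod r) ≠ 1 := fun e => j5 (by simp [e])
      have q2 := orderOf_eq_one_iff.1 (orderOf_eq_one_iff'.2 (dvd_of_one_le_padicValNat a3.ge))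
      rw [hq, Nat.cast_pow] at q2
      haveI := Fact.mk hk
      have q3 := ZMod.orderOf_dvd_card_sub_one (a := (Fintype.card F₀ : ZMod r)) fun e => by
        simp [e, hk.ne_zero] at q2
      rw [orderOf_eq_prime q2 q1] at q3
      obtain rfl : k = 2 := (Nat.prime_dvd_prime_iff_eq hk Nat.prime_two).1 (hk.dvd_of_dvd_pow (n := 2)
        (q3.trans (by obtain rfl | rfl := a1 <;> decide)))
      rw [hz q1, ← hq] at hv
      omega)
  exact hf' (H f c hf).sy

theorem sub_three [CharP F 3] {k : ℕ} (hn : 2 ≤ n) (hk : k.Prime) (hq : Fintype.card F = Fintype.card F₀ ^ k) :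
    (∀ x : SL(n, F),
      (∃ z : F, ((x ^ 3 : SL(n, F)) : Matrix (Fin n) (Fin n) F) = z • (1 : Matrix (Fin n) (Fin n) F)) →
      (∀ z : F, (x : Matrix (Fin n) (Fin n) F) ≠ z • (1 : Matrix (Fin n) (Fin n) F)) →
      ∃ P : SL(n, F), P⁻¹ * x * P ∈ (Geo.subfieldSubgroup F₀ 1).comap SpecialLinearGroup.toGL) ↔
    (Odd n ∨ (Even n ∧ 2 < k)) := by
  have h2 : (2 : F) ≠ 0 := by simpa using natCast_ne_zero_of_ne (F := F) (p := 3) Nat.prime_two (by decide)
  refine ⟨fun H => by_contra fun h => ?_, fun h x h1 h3 => ?_⟩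
  swap
  · refine sl_of_cj' ((forall_SL_iff (Cj _)).2 (fun f c hf => (cj_sub hf).2 ?_) x h1 h3)
      ((forall_SL_iff fun f => ∀ d : F, d ≠ 0 → ∃ c, c * f = f * c ∧
        ∃ k ∈ Geo.subfieldSubgroup (ι := Fin n) F₀ 1, k.1.det * LinearMap.det c = d).2 (fun f c hf a ha => ?_) x h1 h3) <;>
      obtain ⟨w, g, w0, -, rfl, hg⟩ := exists_unip_of_pow hf.ne hf.2.1
    · exact (sf_unip ⟨3, hg⟩).smul w0
    obtain ⟨t, d, h1, h3⟩ := exists_jordan (f := g - 1) ⟨3, hg⟩
    have h4 := (nil_pow_eq_zero_iff d 3).1 ((h3.pow 3).zero_iff.1 hg)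
    have h5 := h3.finrank_eq
    rw [finrank_nil, finrank_fin_fun] at h5
    obtain ⟨i, b, u, rfl⟩ : ∃ (i : Fin t) (b : F) (u : F₀), u * b ^ d i = a := by
      by_cases e : ∀ i, d i = 2
      · obtain ⟨u, hu⟩ := exists_nonsq h2 (hk.odd_of_ne_two (by
          rintro rfl; simp [h5, e] at h; exact absurd h (by simp))) hq
        have i : Fin t := ⟨0, Nat.pos_of_ne_zero (by rintro rfl; simp at h5; omega)⟩
        have u0 : (u : F) ≠ 0 := fun e => hu (by simp [e])
        by_cases e' : IsSquare a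
        · exact let ⟨b, hb⟩ := e'; ⟨i, b, 1, by simp [e, sq, hb]⟩
        obtain ⟨b, hb⟩ := (isSquare_mul_iff ha u0).2 (iff_of_false e' hu)
        exact ⟨i, b / u, u, by rw [e]; field_simp; linear_combination -hb⟩
      obtain ⟨i, hi⟩ := not_forall.1 e
      obtain e | e : d i = 1 ∨ d i = 3 := by have := h1 i; have := h4 i; omega
      · exact ⟨i, a, 1, by simp [e]⟩
      · exact let ⟨b, hb⟩ := surjective_frobenius F 3 a; ⟨i, b, 1, by simpa [e, frobenius_def] using hb⟩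
    obtain ⟨k, k1, k2⟩ := h3.exists_commute_det (d := b ^ d i) (by
      simpa using exists_commute_det_pow (f := fun k => (X : F[X]) ^ d k) (fun k => monic_X_pow _) i b)
    have e : ((diagonal (Function.update 1 ⟨0, by omega⟩ u) : Matrix (Fin n) (Fin n) F₀).map F₀.subtype).det = u := by
      rw [← RingHom.mapMatrix_apply, ← RingHom.map_det, det_diagonal, Finset.prod_update_of_mem (Finset.mem_univ _)]
      simp
    exact ⟨k, by rw [mul_smul_comm, smul_mul_assoc]; congr 1; simpa [mul_sub, sub_mul] using k1,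
      GeneralLinearGroup.mkOfDetNeZero _ (e ▸ left_ne_zero_of_mul ha),
      (mem_sub _).2 ⟨1, one_ne_zero, _, (one_smul _ _).symm⟩, congrArg₂ (· * ·) e k2⟩
  obtain ⟨m, rfl⟩ := Nat.not_odd_iff_even.1 (not_or.1 h).1
  obtain rfl : k = 2 := le_antisymm (not_lt.1 fun e => h (Or.inr ⟨⟨m, rfl⟩, e⟩)) hk.two_le
  obtain ⟨x, x1, x2⟩ := exists_unipotent F₀ (ι := Fin (m + m)) (s := Multiset.replicate m 2)
    (by simp +contextual [Multiset.mem_replicate]) (by simp; ring)
  obtain ⟨δ, hδ⟩ := FiniteField.exists_nonsquare (F := F) (by rw [ringChar.eq F 3]; decide)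
  have δ0 : δ ≠ 0 := fun e => hδ (by simp [e])
  obtain ⟨g, hg⟩ : ∃ g : GL (Fin (m + m)) F, g.1.det = δ :=
    ⟨GeneralLinearGroup.mkOfDetNeZero (diagonal (Function.update 1 ⟨0, by omega⟩ δ)) (by
      simpa [Finset.prod_update_of_mem]), by simp [Finset.prod_update_of_mem]⟩
  let y := GeneralLinearGroup.map F₀.subtype x
  have y0 : ∀ (A : Matrix (Fin (m + m)) (Fin (m + m)) F₀) j, ((A - 1) ^ j).map F₀.subtype =
      (A.map F₀.subtype - 1) ^ j := fun A j => by
    rw [← RingHom.mapMatrix_apply, map_pow, map_sub, map_one]; rfl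
  have x3 : (x.1 - 1) ^ 2 = 0 := toLin'.injective (by
    rw [toLin'_pow', toLin'_sub_one, map_zero, pow_eq_zero_iff_jt x1, x2]
    simp +contextual [Multiset.mem_replicate])
  have y1 : (y.1 - 1) ^ 2 = 0 := by
    refine (y0 x.1 2).symm.trans ?_; simp [x3]
  have y2 : finrank F (LinearMap.ker (toLin' (y.1 - 1))) = m := by
    have := card_jt x1
    rw [x2, ← toLin'_sub_one, finrank_ker_toLin', ← rank_map F₀.subtype, ← pow_one (x.1 - 1), y0,
      pow_one, ← finrank_ker_toLin', Multiset.card_replicate] at this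
    exact this.symm
  have y3 : LinearMap.range (toLin' (y.1 - 1)) = LinearMap.ker (toLin' (y.1 - 1)) :=
    Submodule.eq_of_le_of_finrank_eq (LinearMap.range_le_ker_iff.2 (by
      rw [← toLin'_mul, ← sq, y1, map_zero])) (by
      have := LinearMap.finrank_range_add_finrank_ker (toLin' (y.1 - 1))
      rw [finrank_fin_fun] at this; omega)
  have s : Sim (toLin' y.1) (toLin' (g * y * g⁻¹).1) := isConj_GL_iff_sim.1 (isConj_iff.2 ⟨g, rfl⟩)
  have y4 : IsNilpotent (toLin' y.1 - 1) := ⟨2, by rw [← toLin'_sub_one, ← toLin'_pow', y1, map_zero]⟩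
  obtain ⟨P, hP⟩ := H ⟨(g * y * g⁻¹).1, by rw [← LinearMap.det_toLin', ← s.det_eq, det_of_unip y4]⟩
    ⟨1, (toLin'_eq_smul_iff _ 3 1).1 (Sim.pow_eq s (by
      rw [one_smul, ← sub_eq_zero, ← sub_one_pow_char, ← toLin'_sub_one, ← toLin'_pow', pow_succ, y1]; simp))⟩
    fun z e => Sim.ne_smul s (fun a e => by
      rw [toLin'_sub_one, e, eq_one_of_unip_smul (e ▸ y4), sub_self, LinearMap.ker_zero, finrank_top,
        finrank_fin_fun] at y2
      omega) z ((pow_one _).symm.trans ((toLin'_eq_smul_iff _ 1 z).2 ((pow_one _).trans e)))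
  replace hP : (SpecialLinearGroup.toGL P)⁻¹ * (g * y * g⁻¹) * SpecialLinearGroup.toGL P ∈
      Geo.subfieldSubgroup F₀ 1 := by
    rw [Subgroup.mem_comap, map_mul, map_mul, map_inv] at hP; convert hP; exact Units.ext rfl
  obtain ⟨a, a0, A, hA⟩ := (mem_sub _).1 hP
  have s' : IsConj y.1 (a • A.map F₀.subtype) := hA ▸ isConj_units_iff.1
    (isConj_iff.2 ⟨(SpecialLinearGroup.toGL P)⁻¹ * g, by group⟩)
  obtain ⟨b, rfl⟩ : ∃ b : F₀, (b : F) = a := by
    let L := AlgebraicClosure F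
    have e := Sim.ev L (isConj_iff_sim.1 s')
    rw [ev_unip L y4, map_smul, ev_smul', ev_sub] at e
    obtain ⟨z, hz, e'⟩ := Multiset.mem_map.1 (e ▸ (Multiset.mem_replicate (a := (1 : L))).2 ⟨by simp; omega, rfl⟩)
    have e2 := Multiset.eq_of_mem_replicate (e ▸ Multiset.mem_map_of_mem _ (SX.mem (st_ev L (toLin' A)) hz))
    obtain ⟨b, rfl⟩ := mem_range_of_pow_card (F := F₀) L (mul_left_cancel₀ (by simpa using a0) (e2.trans e'.symm))
    have e3 : a * b = 1 := (algebraMap F L).injective (by rw [map_mul, map_one]; exact e')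
    exact ⟨b⁻¹, by simpa using inv_eq_of_mul_eq_one_left e3⟩
  rw [show (b : F) • A.map F₀.subtype = (b • A).map F₀.subtype by ext; simp] at s' hA
  obtain ⟨h, hh⟩ := isConj_of_rank_pow (A := x.1) (B := b • A) ⟨2, x3⟩ fun j => by
    rw [← rank_map F₀.subtype, ← rank_map F₀.subtype, y0, y0, rank_eq_finrank, rank_eq_finrank,
      toLin'_pow', toLin'_pow', toLin'_sub_one, toLin'_sub_one]
    exact ((isConj_iff_sim.1 s').sub_one.pow j).finrank_range
  have hh' : GeneralLinearGroup.map F₀.subtype h * y = (SpecialLinearGroup.toGL P)⁻¹ * (g * y * g⁻¹) *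
      SpecialLinearGroup.toGL P * GeneralLinearGroup.map F₀.subtype h := Units.ext (by
    rw [Units.val_mul _ (GeneralLinearGroup.map _ h), hA]
    exact (Matrix.map_mul.symm.trans (congrArg (·.map F₀.subtype) hh.eq)).trans Matrix.map_mul)
  obtain ⟨u, hu⟩ := det_sq (c := toLin' (g⁻¹ * SpecialLinearGroup.toGL P * GeneralLinearGroup.map F₀.subtype h).1)
    y3 (by
      rw [← toLin'_mul', ← toLin'_mul', mul_sub, sub_mul, mul_one, one_mul, ← Units.val_mul, ← Units.val_mul,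
        mul_assoc, hh']
      congr 3; group)
  obtain ⟨v, hv⟩ := sq_of_mem h2 hq h.1.det
  rw [LinearMap.det_toLin', Units.val_mul, Units.val_mul, det_mul, det_mul] at hu
  have e1 : (g⁻¹).1.det * δ = 1 := by rw [← hg, ← det_mul, ← Units.val_mul, inv_mul_cancel]; simp
  have e2 : (GeneralLinearGroup.map F₀.subtype h).1.det = v ^ 2 := (F₀.subtype.map_det h.1).symm.trans hv.symm
  have u0 : u ≠ 0 := ne_zero_pow two_ne_zero (hu ▸ mul_ne_zero (mul_ne_zero (g⁻¹).det_ne_zero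
    (SpecialLinearGroup.toGL P).det_ne_zero) (GeneralLinearGroup.map F₀.subtype h).det_ne_zero)
  rw [e2, show (SpecialLinearGroup.toGL P).1.det = 1 from P.2] at hu
  exact hδ ⟨v / u, by field_simp; linear_combination δ * hu + v ^ 2 * e1⟩

end Cfsg.Agent.Elv
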