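import Mathlib
import Cfsg.Agent.Elv.Sub
import Cfsg.Agent.Elu.Ext

/-!
Extension field subgroups of `SL_n(q)`.
-/

set_option autoImplicit false
set_option backward.isDefEq.respectTransparency false

namespace Cfsg.Agent.Elv

open Module Polynomial Conj Spc Elu Matrix
open scoped _root_.Classical MatrixGroups

universe u

variable {F : Type u} {K V W : Type*} [Field F] [Field K] [Algebra F K] [AddCommGroup V] [Module F V]
  [Module K V] [IsScalarTower F K V] [AddCommGroup W] [Module F W] {f : End F V} {g : End F W}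
  {r n : ℕ} {c : F}

variable (K V) in
/-- similar to a semilinear map -/
def CK (g : End F W) : Prop := ∃ h : End F V, Elu.Sm K h ∧ Sim g h

theorem CK.smul (h : CK K V g) (w : F) : CK K V (w • g) :=
  let ⟨k, h1, h2⟩ := h
  ⟨w • k, h1.smul w, h2.smul w⟩

theorem elus_ext [Module K (Fin n → F)] [IsScalarTower F K (Fin n → F)] {H : Subgroup (GL (Fin n) F)}
    (h : ∀ g, g ∈ H ↔ Elu.Sm K (toLin' g.1)) : (∀ (f : End F (Fin n → F)) c, El r f c → Cj H f) ↔
      ∀ (f : End F (Fin n → F)) c, El r f c → CK K (Fin n → F) f :=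
  forall₃_congr fun _ _ hf => cj_iff _ h (by rw [hf.1]; exact one_ne_zero)

variable [FiniteDimensional F V] [FiniteDimensional F W]

theorem sim_two {V : Type*} [AddCommGroup V] [Module F V] {f : End F V} (hf : f ^ 2 = c • 1)
    (hg : g ^ 2 = c • 1) (h1 : ∀ a : F, f ≠ a • 1) (h2 : ∀ a : F, g ≠ a • 1) (d1 : finrank F V = 2)
    (d2 : finrank F W = 2) : Sim f g := by
  obtain ⟨v, hv⟩ := not_forall_not.1 (mt f.exists_eq_smul_id_of_forall_notLinearIndependent (not_exists.2 h1))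
  obtain ⟨w, hw⟩ := not_forall_not.1 (mt g.exists_eq_smul_id_of_forall_notLinearIndependent (not_exists.2 h2))
  obtain ⟨b, hb⟩ : ∃ b : Basis (Fin 2) F V, ⇑b = ![v, f v] :=
    ⟨_, coe_basisOfLinearIndependentOfCardEqFinrank hv (by simp [d1])⟩
  obtain ⟨b', hb'⟩ : ∃ b : Basis (Fin 2) F W, ⇑b = ![w, g w] :=
    ⟨_, coe_basisOfLinearIndependentOfCardEqFinrank hw (by simp [d2])⟩
  have e1 : b.equiv b' (.refl _) v = w := by simpa [hb, hb'] using b.equiv_apply 0 b' (.refl _)
  have e2 : b.equiv b' (.refl _) (f v) = g w := by simpa [hb, hb'] using b.equiv_apply 1 b' (.refl _)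
  refine ⟨b.equiv b' (.refl _), LinearMap.congr_fun (f := (b.equiv b' (.refl _)).toLinearMap ∘ₗ f)
    (g := g ∘ₗ (b.equiv b' (.refl _)).toLinearMap) (b.ext fun i => ?_)⟩
  have e3 : f (f v) = c • v := LinearMap.congr_fun hf v
  have e4 : g (g w) = c • w := LinearMap.congr_fun hg w
  fin_cases i <;> simp [hb, e1, e2, e3, e4]

theorem R1.mo {a : F} (h : R1 g a) : ∃ w : F, finrank F (Mo (w • g)) = 1 ∧ ∀ b : F, w • g ≠ b • 1 ∨
    finrank F W < 2 := by
  obtain ⟨w, φ, e, w0, φ0, e0, h1, h2⟩ := h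
  refine ⟨w⁻¹, ?_, fun b => or_iff_not_imp_right.2 fun h => R1.ne_smul ⟨1, φ, e, one_ne_zero, φ0, e0, h1,
    fun v => by simp [h2, w0]⟩ (by omega) b⟩
  obtain ⟨u, hu⟩ := DFunLike.ne_iff.1 φ0
  rw [← finrank_span_singleton (K := F) e0]
  refine congrArg (fun U : Submodule F W => finrank F U) (le_antisymm ?_ ?_)
  · rintro _ ⟨v, rfl⟩
    exact Submodule.mem_span_singleton.2 ⟨φ v, by simp [h2, w0]⟩
  · exact (Submodule.span_singleton_le_iff_mem _ _).2 ⟨(φ u)⁻¹ • u, by
      simp [h2, w0, smul_smul, show φ u ≠ 0 from hu]⟩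

theorem R1.not_ck {a : F} (h : R1 g a) (hk : finrank F K = 2) (hn : 2 < finrank F V) : ¬ CK K V g := by
  rintro ⟨k, h1, h2⟩
  obtain ⟨w, h3, -⟩ := (h.sim h2).mo
  obtain ⟨t, ht⟩ | h4 := (h1.smul w).lin_or
  · rw [← ht, finrank_Mo_res, hk] at h3; omega
  · have := finrank_Fx_add (w • k); omega

theorem fx_le_one (hk : (finrank F K).Prime) (hd : finrank F V = finrank F K) (h : CK K V g)
    (h1 : g ≠ 1) : finrank F (Fx g) ≤ 1 := by
  obtain ⟨f, h, s⟩ := h
  rw [Sim.finrank_Fx s]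
  replace h1 : f ≠ 1 := mt s.one_iff.2 h1
  have d : finrank K V = 1 := Nat.eq_of_mul_eq_mul_left hk.pos (by rw [finrank_mul_finrank, hd, mul_one])
  let S : Subalgebra F K :=
    { carrier := {k | ∀ v, f (k • v) = k • f v}
      mul_mem' := fun ha hb v => by rw [mul_smul, ha, hb, mul_smul]
      add_mem' := fun ha hb v => by rw [add_smul, map_add, ha, hb, add_smul]
      algebraMap_mem' := fun a v => by simp }
  rw [finrank_le_one_iff]
  by_cases h0 : ∃ v : Fx f, v ≠ 0
  swap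
  · exact ⟨0, fun w => ⟨0, by simpa using (not_not.1 (not_exists.1 h0 w)).symm⟩⟩
  obtain ⟨⟨v, hv⟩, v0⟩ := h0
  have h3 := (finrank_eq_one_iff_of_nonzero' v (by simpa using v0)).1 d
  obtain e | e := (Subalgebra.isSimpleOrder_of_finrank_prime F K hk).2 S
  · refine ⟨⟨v, hv⟩, fun ⟨u, hu⟩ => ?_⟩
    obtain ⟨k, rfl⟩ := h3 u
    obtain ⟨k', hk'⟩ := h k
    obtain rfl : k' = k := smul_left_injective K (show v ≠ 0 by simpa using v0) (by
      simpa [mem_Fx.1 hu, mem_Fx.1 hv] using (hk' v).symm)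
    obtain ⟨a, rfl⟩ := Algebra.mem_bot.1 (e ▸ show k' ∈ S from hk')
    exact ⟨a, by simp⟩
  · refine absurd (LinearMap.ext fun u => ?_) h1
    obtain ⟨k, rfl⟩ := h3 u
    rw [(e ▸ Algebra.mem_top : k ∈ S) v, mem_Fx.1 hv]; rfl

variable [Fintype F]

theorem exists_phi [Nontrivial V] (hk : finrank F K ≠ 1) : ∃ g : End F V, g ^ finrank F K = 1 ∧
    (∀ (x : K) v, g (x • v) = x ^ Fintype.card F • g v) ∧ ∀ a : K, ¬ ∀ v, g v = a • v := by
  haveI : FiniteDimensional K V := Module.Finite.of_restrictScalars_finite F K V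
  haveI : FiniteDimensional F K := Module.Finite.left F K V
  haveI : Finite K := Module.finite_of_finite F
  let ρ := FiniteField.frobeniusAlgEquivOfAlgebraic F K
  let b := finBasis K V
  obtain ⟨g, h1, h2⟩ := exists_semi b b (ρ : K →+* K) ρ.commutes
  have h3 : ∀ j (x : K) i, (g ^ j) (x • b i) = (ρ ^ j) x • b i := fun j => by
    induction j with
    | zero => simp
    | succ j ih => intro x i; rw [pow_succ', End.mul_apply, ih, h1, h2, pow_succ']; rfl
  have h4 := FiniteField.orderOf_frobeniusAlgEquivOfAlgebraic F K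
  refine ⟨g, LinearMap.ext fun v => ?_, h1, fun a ha => hk ?_⟩
  · rw [← b.sum_repr v, map_sum, ← h4]
    simp only [h3, ρ, pow_orderOf_eq_one]; rfl
  let i : Fin (finrank K V) := ⟨0, finrank_pos⟩
  rw [← h4, orderOf_eq_one_iff]
  refine AlgEquiv.ext fun x => smul_left_injective K (b.ne_zero i) ?_
  have := h1 x (b i)
  rw [h2, ha, smul_comm, ← ha, h2] at this
  exact this.symm

omit [Module K V] [IsScalarTower F K V] in
theorem ev_invol (L : Type*) [Field L] [IsAlgClosed L] [Algebra F L] (h2 : (2 : F) ≠ 0) (h : f ^ 2 = 1) :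
    ev L f = Multiset.replicate (finrank F (Fx f)) 1 + Multiset.replicate (finrank F (Mo f)) (-1) := by
  rw [ev_res _ (isCompl_Fx (by simpa using h2) h) (Fx_inv f) (Mo_inv f), res_Fx, res_Mo_sq h]
  simp [-neg_smul, ev_smul', ev_one]

omit [Module K V] [IsScalarTower F K V] in
theorem even_Mo (h2 : (2 : F) ≠ 0) {w : F} (hf : El 2 f (w ^ 2))
    (h : padicValNat 2 (Fintype.card F - 1) ≤ padicValNat 2 (finrank F V)) :
    (w⁻¹ • f) ^ 2 = 1 ∧ Even (finrank F (Mo (w⁻¹ • f))) := by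
  have w0 : w ≠ 0 := ne_zero_pow two_ne_zero hf.ne
  have h1 : (w⁻¹ • f) ^ 2 = 1 := by rw [_root_.smul_pow, hf.2.1, smul_smul, ← mul_pow]; simp [w0]
  haveI := hf.nontriv
  refine ⟨h1, by_contra fun e => (exists_pow_neg h2 (finrank_pos (R := F) (M := V)).ne').1 ⟨w⁻¹, ?_⟩ h⟩
  have := prod_ev_eq_det (AlgebraicClosure F) (w⁻¹ • f)
  rw [ev_invol _ h2 h1] at this
  exact (algebraMap F (AlgebraicClosure F)).injective (by
    simpa [hf.1, (Nat.not_even_iff_odd.1 e).neg_one_pow] using this.symm)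

theorem ext_two (hk : finrank F K = 2) (hn : 2 ≤ finrank F V) :
    (∀ (f : End F V) c, El 2 f c → CK K V f) ↔ (finrank F V = 2 ∨ (Odd (Fintype.card F) ∧
      padicValNat 2 (Fintype.card F - 1) ≤ padicValNat 2 (finrank F V))) := by
  refine ⟨fun h => by_contra fun e => ?_, fun h f c hf => ?_⟩
  · obtain ⟨f, c, a, h1, h3⟩ : ∃ (f : End F V) (c a : F), El 2 f c ∧ R1 f a := by
      by_cases h2 : (2 : F) = 0
      · haveI : CharP F 2 := CharTwo.of_one_ne_zero_of_two_eq_zero one_ne_zero h2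
        exact let ⟨f, h⟩ := exists_tv (p := 2) hn; ⟨f, _, _, h⟩
      · exact let ⟨f, c, h⟩ := exists_refl h2 hn fun h => e (Or.inr ⟨Nat.odd_iff.2 (odd_card h2), h⟩)
          ⟨f, c, _, h⟩
    exact h3.not_ck hk (by omega) (h f c h1)
  haveI := hf.nontriv
  haveI : FiniteDimensional K V := Module.Finite.of_restrictScalars_finite F K V
  haveI : FiniteDimensional F K := Module.Finite.left F K V
  haveI : Finite K := Module.finite_of_finite F
  have hK : Nat.card K = Fintype.card F ^ 2 := by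
    rw [Module.natCard_eq_pow_finrank (K := F), hk, Nat.card_eq_fintype_card]
  obtain ⟨φ, φ1, φ2, φ3⟩ := exists_phi (F := F) (V := V) (K := K) (by omega)
  obtain ⟨a, ha⟩ := (Herm.inv_frob hK).exists_norm (μ := algebraMap F K c) (by
    rw [Herm.frob_apply, ← map_pow, FiniteField.pow_card])
  have a0 : a ≠ 0 := by rintro rfl; exact hf.ne (by simpa using ha.symm)
  have k1 : Elu.Sm K ((a • (1 : End K V)).restrictScalars F * φ) := (sm_res _).mul fun k => ⟨_, φ2 k⟩
  have k2 : ((a • (1 : End K V)).restrictScalars F * φ) ^ 2 = c • 1 := LinearMap.ext fun v => by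
    have : φ (φ v) = v := by rw [hk] at φ1; exact LinearMap.congr_fun φ1 v
    simp [sq, φ2, this, smul_smul, mul_comm a, ← Herm.frob_apply hK, ha]
  by_cases d : finrank F V = 2
  · refine ⟨_, k1, sim_two hf.2.1 k2 hf.2.2 (fun b e => φ3 (a⁻¹ * algebraMap F K b) fun v => ?_) d d⟩
    have : a • φ v = b • v := LinearMap.congr_fun e v
    rw [mul_smul, algebraMap_smul, ← this, inv_smul_smul₀ a0]
  by_cases hc : ∃ w, w ^ 2 = c
  swap
  · exact ⟨_, k1, sim_nonpow Nat.prime_two hc hf.2.1 k2 rfl⟩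
  obtain ⟨w, rfl⟩ := hc
  obtain ⟨h1, h3⟩ := h.resolve_left d
  have h2 := two_ne h1
  obtain ⟨h4, j, h5⟩ := even_Mo h2 hf h3
  rw [← smul_inv_smul₀ (ne_zero_pow two_ne_zero hf.ne) f]
  generalize w⁻¹ • f = y at h4 h5
  have h6 := finrank_mul_finrank F K V
  have h7 := finrank_Fx_add y
  rw [hk] at h6
  have h8 : (2 : K) ≠ 0 := by rw [← map_ofNat (algebraMap F K)]; simpa using h2
  let e : ((Fin (finrank K V - j) → K) × (Fin j → K)) ≃ₗ[K] V := LinearEquiv.ofFinrankEq _ _ (by simp; omega)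
  have s : Sim (LinearMap.prodMap 1 ((-1 : K) • 1)) (e.conj (LinearMap.prodMap 1 ((-1 : K) • 1))) :=
    ⟨e, fun v => by simp only [LinearEquiv.conj_apply_apply, LinearEquiv.symm_apply_apply]⟩
  have h9 := finrank_Fx_res (F := F) (e.conj (LinearMap.prodMap 1 ((-1 : K) • 1)))
  rw [← Sim.finrank_Fx s, finrank_Fx_prod (fpf_neg h8), finrank_fin_fun, hk] at h9
  have h10 := (res_pow_eq_one (F := F)).2 ((s.pow 2).one_iff.1 (by
    rw [prodMap_pow_eq_one, _root_.smul_pow]; simp))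
  have h11 := finrank_Fx_add ((e.conj (LinearMap.prodMap 1 ((-1 : K) • 1))).restrictScalars F)
  refine CK.smul ⟨_, sm_res _, sim_ev1 (AlgebraicClosure F) (by simpa using h2) h4 h10 ?_⟩ w
  rw [ev_invol _ h2 h4, ev_invol _ h2 h10]
  congr 2 <;> omega

omit [Module K V] [IsScalarTower F K V] in
theorem count_one (L : Type*) [Field L] [IsAlgClosed L] [Algebra F L] (h0 : (r : F) ≠ 0) (h : f ^ r = 1) :
    (ev L f).count 1 = finrank F (Fx f) := by
  rw [ev_res _ (isCompl_Fx h0 h) (Fx_inv f) (Mo_inv f), res_Fx, ev_one, Multiset.count_add,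
    Multiset.count_replicate_self, Multiset.count_eq_zero_of_notMem, add_zero]
  intro e
  obtain ⟨v, v0, hv⟩ := exists_apply_of_mem_ev L (a := (1 : F)) (f := res f (Mo_inv f)) (by simpa using e)
  exact v0 (fpf_Mo h0 h v (by simpa using hv))

theorem not_ck_of_count (hk : (finrank F K).Prime) (hd : finrank F V = finrank F K) (h0 : (r : F) ≠ 0)
    {w : F} (hf : El r g (w ^ r))
    (h : 2 ≤ (ev (AlgebraicClosure F) g).count (algebraMap F _ w)) : ¬ CK K V g := fun e => by
  have w0 : w ≠ 0 := ne_zero_pow (by rintro rfl; simp at h0) hf.ne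
  have := fx_le_one hk hd (e.smul w⁻¹) fun e => hf.2.2 w (by rw [← e, smul_inv_smul₀ w0])
  rw [← count_one (AlgebraicClosure F) h0 (by rw [_root_.smul_pow, hf.2.1, smul_smul, ← mul_pow]; simp [w0]),
    ev_smul', show (1 : AlgebraicClosure F) = algebraMap F _ w⁻¹ * algebraMap F _ w by simp [w0],
    Multiset.count_map_eq_count' _ _ (mul_right_injective₀ (by simpa using w0))] at this
  omega

omit [Module K V] [IsScalarTower F K V] in
theorem mu_eq [hr : Fact r.Prime] {L : Type*} [Field L] [IsAlgClosed L] [Algebra F L] {ζ : L}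
    (hζ : IsPrimitiveRoot ζ r) (h0 : (r : F) ≠ 0) (h2 : 2 < r) (hd : finrank F V = r) (h1 : f ^ r = 1)
    (h3 : f ≠ 1) (h : ∀ a : ZMod r, a ≠ 0 → mu ζ f a = mu ζ f (1 : ZMod r)) : (mu ζ f : ZMod r → ℕ) = 1 := by
  have h4 := sum_mu hζ h1
  rw [← Finset.add_sum_erase _ _ (Finset.mem_univ 0), Finset.sum_congr rfl fun a ha =>
    h a (Finset.ne_of_mem_erase ha), Finset.sum_const, Finset.card_erase_of_mem (Finset.mem_univ _),
    Finset.card_univ, ZMod.card, smul_eq_mul, hd] at h4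
  have h5 : mu ζ f (1 : ZMod r) ≠ 0 := fun e => h3 (((sim_iff_mu (g := (1 : End F V)) hζ h0 h1 (one_pow r)).2 (funext fun a => by
    rw [mu_one hζ]
    split_ifs with a0
    exacts [by rw [e] at h4; rw [a0]; omega, (h a a0).trans e])).one_iff.2 rfl)
  have h6 : mu ζ f (1 : ZMod r) = 1 := by
    by_contra e
    have := Nat.mul_le_mul_left (r - 1) (show 2 ≤ mu ζ f (1 : ZMod r) by omega)
    omega
  refine funext fun a => ?_
  by_cases a0 : a = 0
  · rw [h6] at h4; rw [a0, Pi.one_apply]; omega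
  · exact (h a a0).trans h6

omit [Module K V] [IsScalarTower F K V] in
theorem mu_max [hr : Fact r.Prime] {L : Type*} [Field L] [IsAlgClosed L] [Algebra F L] {ζ : L}
    (hζ : IsPrimitiveRoot ζ r) (hi : orderOf (Fintype.card F : ZMod r) = r - 1) (f : End F V)
    (a : ZMod r) (ha : a ≠ 0) : mu ζ f a = mu ζ f (1 : ZMod r) := by
  haveI : NeZero (r - 1) := ⟨by have := hr.out.two_le; omega⟩
  obtain ⟨j, -, rfl⟩ := (hi ▸ IsPrimitiveRoot.orderOf _).eq_pow_of_pow_eq_one (ZMod.pow_card_sub_one_eq_one ha)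
  clear ha
  induction j with
  | zero => rw [pow_zero]
  | succ j ih => rw [pow_succ', mu_card hζ, ih]

theorem ext_max [hr : Fact r.Prime] (h0 : (r : F) ≠ 0) (h2 : 2 < r) (hk : finrank F K = r)
    (hd : finrank F V = r) (hi : orderOf (Fintype.card F : ZMod r) = r - 1) (hf : El r f c) : CK K V f := by
  haveI := hf.nontriv
  obtain ⟨w, rfl⟩ := exists_root_of_ne hr.out (by omega) c
  have w0 : w ≠ 0 := ne_zero_pow hr.out.ne_zero hf.ne
  obtain ⟨φ, φ1, φ2, φ3⟩ := exists_phi (F := F) (V := V) (K := K) (by omega)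
  obtain ⟨ζ, hζ⟩ := exists_prim (AlgebraicClosure F) h0
  have h1 : (w⁻¹ • f) ^ r = 1 := by rw [_root_.smul_pow, hf.2.1, smul_smul, ← mul_pow]; simp [w0]
  rw [hk] at φ1
  simpa [w0] using CK.smul ⟨φ, fun k => ⟨_, φ2 k⟩, (sim_iff_mu hζ h0 h1 φ1).2
    ((mu_eq hζ h0 h2 hd h1 (fun e => hf.2.2 w (by rw [← e, smul_inv_smul₀ w0])) (mu_max hζ hi _)).trans
      (mu_eq hζ h0 h2 hd φ1 (fun e => φ3 1 (by simp [e])) (mu_max hζ hi _)).symm)⟩ w

theorem ext_prime [Module K (Fin n → F)] [IsScalarTower F K (Fin n → F)] [hr : Fact n.Prime]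
    (h0 : (n : F) ≠ 0) (h3 : 3 < n) (hk : finrank F K = n) :
    (∀ (f : End F (Fin n → F)) c, El n f c → CK K (Fin n → F) f) ↔ orderOf (Fintype.card F : ZMod n) = n - 1 := by
  refine ⟨fun h => by_contra fun e => ?_, fun h f c => ext_max h0 (by omega) hk (by simp) h⟩
  suffices ∃ f : End F (Fin n → F), El n f 1 ∧ 2 ≤ (ev (AlgebraicClosure F) f).count 1 by
    obtain ⟨f, h1, h2⟩ := this
    exact not_ck_of_count (w := 1) (hk ▸ hr.out) (by simp [hk]) h0 (by simpa using h1) (by simpa using h2) (h f 1 h1)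
  by_cases hi : orderOf (Fintype.card F : ZMod n) = 1
  · obtain ⟨ζ, hζ⟩ := exists_prim_F hr.out (orderOf_eq_one_iff'.1 hi)
    obtain ⟨f, h1, h2⟩ := exists_el_F (AlgebraicClosure F) (r := n) (c := 1) (u := ζ) (v := 1) (n := n)
      (ζ ::ₘ ζ⁻¹ ::ₘ Multiset.replicate (n - 2) 1) (by simp; omega)
      (by simp +contextual [Multiset.mem_replicate, hζ.pow_eq_one]) (by simp [hζ.ne_zero hr.out.ne_zero])
      (by simp) (by simp [Multiset.mem_replicate]; omega) (hζ.ne_one hr.out.one_lt)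
    refine ⟨f, h1, ?_⟩
    rw [h2, Multiset.map_cons, Multiset.map_cons]
    exact le_trans (by simp; omega) ((Multiset.count_le_count_cons _ _ _).trans (Multiset.count_le_count_cons _ _ _))
  obtain ⟨ζ, hζ⟩ := exists_prim (AlgebraicClosure F) h0
  obtain ⟨t, ht⟩ : orderOf (Fintype.card F : ZMod n) ∣ n - 1 := ZMod.orderOf_dvd_card_sub_one (card_ne_zero_zmod h0)
  have i0 := ord_pos h0 hr.out
  have := Nat.mul_le_mul_left (orderOf (Fintype.card F : ZMod n)) (show 2 ≤ t by
    rcases t with _ | _ | t <;> omega)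
  obtain ⟨t1, t2, t3, t4⟩ := shp_spec _ hr.out hi hζ (n - orderOf (Fintype.card F : ZMod n)) 1
  obtain ⟨f, hf, hf'⟩ := exists_el_of_ne _ hr.out hi _ t1 t2 (n := n)
    (by rw [← fx_add_nf (q := Fintype.card F), t3, t4]; omega) (by rw [t4]; omega)
  exact ⟨f, hf, by rw [hf', shp, Multiset.count_add, Multiset.count_replicate_self]; omega⟩

theorem ext_three {p : ℕ} [hp : Fact p.Prime] [CharP F p] [Module K (Fin 3 → F)] [IsScalarTower F K (Fin 3 → F)]
    (hk : finrank F K = 3) {H : Subgroup (GL (Fin 3) F)} (hH : ∀ g, g ∈ H ↔ Elu.Sm K (toLin' g.1))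
    (h : 3 ∣ H.index) : (∀ x : SL(3, F),
      (∃ z : F, ((x ^ 3 : SL(3, F)) : Matrix (Fin 3) (Fin 3) F) = z • (1 : Matrix (Fin 3) (Fin 3) F)) →
      (∀ z : F, (x : Matrix (Fin 3) (Fin 3) F) ≠ z • (1 : Matrix (Fin 3) (Fin 3) F)) →
      ∃ P : SL(3, F), P⁻¹ * x * P ∈ H.comap SpecialLinearGroup.toGL) ↔
    (Fintype.card F % 9 = 4 ∨ Fintype.card F % 9 = 7 ∨ Fintype.card F % 9 = 8) := by
  have hd : finrank F (Fin 3 → F) = finrank F K := by simp [hk]
  have k3 : (finrank F K).Prime := hk ▸ Nat.prime_three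
  have q1 := one_lt_card (F := F)
  by_cases p3 : 3 = p
  · subst p3
    have := (ZMod.natCast_eq_zero_iff _ _).1 (card_zmod_char (F := F) (p := 3))
    refine iff_of_false (fun e => ?_) (by omega)
    obtain ⟨f, h1, h2⟩ := exists_tv (F := F) (V := Fin 3 → F) (p := 3) (by simp)
    obtain ⟨w, h3, h4⟩ := h2.mo
    have := fx_le_one k3 hd (((elus_ext hH).1 (elus_imp e) f 1 h1).smul w)
      (by simpa using (h4 1).resolve_right (by simp))
    have := finrank_Fx_add (w • f)
    omega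
  have h0 : ((3 : ℕ) : F) ≠ 0 := natCast_ne_zero_of_ne Nat.prime_three p3
  rw [elus_iff (Or.inl h0), elus_ext hH]
  obtain ⟨φ, φ1, φ2, φ3⟩ := exists_phi (F := F) (V := Fin 3 → F) (K := K) (by omega)
  have φ4 : CK K (Fin 3 → F) φ := ⟨φ, fun k => ⟨_, φ2 k⟩, Sim.refl _⟩
  rw [hk] at φ1
  by_cases hi : orderOf (Fintype.card F : ZMod 3) = 1
  swap
  · have h1 : orderOf (Fintype.card F : ZMod 3) = 2 := ((Nat.dvd_prime Nat.prime_two).1
      (ZMod.orderOf_dvd_card_sub_one (card_ne_zero_zmod h0))).resolve_left hi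
    refine iff_of_true (fun f c => ext_max h0 (by omega) hk (by simp) h1) ?_
    obtain ⟨x, x1, x2⟩ := (cj_iff _ hH (f := φ) (fun e => by simpa [e] using congrArg LinearMap.det φ1)).2 φ4
    have h2 : orderOf x = 3 := orderOf_eq_prime (Units.ext (by
      simpa using (toLin'_eq_smul_iff _ 3 1).1 (Sim.pow_eq x2 (by simpa using φ1)))) fun e => φ3 1 (by
        rw [x2.one_iff.2 (by rw [e]; exact toLin'_one)]; simp)
    have h3 : 3 * 3 ∣ Nat.card (GL (Fin 3) F) := H.card_mul_index ▸ Nat.mul_dvd_mul (h2.symm.dvd.trans (H.orderOf_dvd_natCard x1)) h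
    rw [card_gl, ← ZMod.natCast_eq_zero_iff] at h3
    simp only [Finset.prod_range_succ, Finset.sum_range_succ, Finset.prod_range_zero, Finset.sum_range_zero, Nat.cast_mul, Nat.cast_pow,
      Nat.cast_sub (Nat.one_le_pow _ _ q1.le), ← ZMod.natCast_mod (Fintype.card F) (3 * 3)] at h3
    have h4 := mt orderOf_eq_one_iff'.2 hi
    have h5 := mt (ZMod.natCast_eq_zero_iff _ _).2 (card_ne_zero_zmod h0)
    obtain e | e | e : Fintype.card F % 9 = 2 ∨ Fintype.card F % 9 = 5 ∨ Fintype.card F % 9 = 8 := by omega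
    exacts [by rw [e] at h3; exact absurd h3 (by decide), by rw [e] at h3; exact absurd h3 (by decide), by omega]
  have h4 := orderOf_eq_one_iff'.1 hi
  obtain ⟨ζ, hζ⟩ := exists_prim_F Nat.prime_three h4
  have v := fun k => padicValNat_dvd_iff_le (p := 3) (a := Fintype.card F - 1) (n := k) (by omega)
  by_cases h9 : 3 ^ 2 ∣ Fintype.card F - 1
  · refine iff_of_false (fun e => ?_) (by omega)
    obtain ⟨w, hw⟩ := exists_pow_mul (n := 3) Nat.prime_three (by omega) hζ.pow_eq_one (by rw [padicValNat_self]; exact (v 2).1 h9)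
    have w0 : w ≠ 0 := by rintro rfl; simp at hw
    obtain ⟨f, h1, h2⟩ := exists_el_F (AlgebraicClosure F) (r := 3) (c := w ^ 3) (u := w) (v := w * ζ) (n := 3)
      (w * ζ ::ₘ Multiset.replicate 2 w) (by simp) (by simp [mul_pow, hζ.pow_eq_one]) (by rw [← hw]; simp; ring)
      (by simp) (by simp) (by simpa [w0, eq_comm] using hζ.ne_one (by omega))
    exact not_ck_of_count k3 hd h0 h1 (by
      rw [h2, Multiset.map_cons]; exact le_trans (by simp) (Multiset.count_le_count_cons _ _ _)) (e f _ h1)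
  refine iff_of_true (fun f c hf => ?_) (by omega)
  obtain ⟨w, w0, w1, w2⟩ := sym (AlgebraicClosure F) (Or.inl rfl) (by simp)
    (by have := (v 1).1 h4; have := mt (v 2).2 h9; omega) hf
  have hz := hζ.map_of_injective (algebraMap F (AlgebraicClosure F)).injective
  have h5 : ∀ a : ZMod 3, mu (algebraMap F (AlgebraicClosure F) ζ) φ a ≤ 1 := fun a => not_lt.1 fun e => by
    have := fx_le_one k3 hd (φ4.smul (ζ ^ a.val)⁻¹) fun e => φ3 (algebraMap F K (ζ ^ a.val)) fun v => by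
      rw [algebraMap_smul, ← inv_smul_eq_iff₀ (pow_ne_zero _ (hζ.ne_zero (by omega)))]
      exact LinearMap.congr_fun e v
    rw [← count_one (AlgebraicClosure F) h0 (by
      rw [_root_.smul_pow, φ1, inv_pow, ← pow_mul, mul_comm, pow_mul, hζ.pow_eq_one]; simp), ev_smul',
      show (1 : AlgebraicClosure F) = algebraMap F _ (ζ ^ a.val)⁻¹ * (1 * ez (algebraMap F _ ζ) a) by
        simp [ez, hζ.ne_zero], Multiset.count_map_eq_count' _ _ (mul_right_injective₀ (by simp [hζ.ne_zero]))] at this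
    exact absurd e (not_lt.2 this)
  have h6 := sum_mu hz φ1
  rw [show (Finset.univ : Finset (ZMod 3)) = {0, 1, 2} by decide, Finset.sum_insert (by decide),
    Finset.sum_pair (by decide), finrank_fin_fun] at h6
  simpa [w0] using CK.smul ⟨φ, fun k => ⟨_, φ2 k⟩, (sim_iff_mu hz h0 w1 φ1).2 ((mu_eq hz h0 (by omega)
    (by simp) w1 (fun e => hf.2.2 w⁻¹ (by rw [← e, inv_smul_smul₀ w0])) fun a ha => by
      obtain rfl | rfl : a = 1 ∨ a = -1 := by revert a; decide
      exacts [rfl, by simpa [mu, cnt, pw, ez_neg hz] using (sx_iff_count (fun x y e => by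
        simpa [pw] using e)).1 w2 (ez (algebraMap F _ ζ) (1 : ZMod 3))]).trans (funext fun a => by
      have := h5 0; have := h5 1; have := h5 2
      obtain rfl | rfl | rfl : a = 0 ∨ a = 1 ∨ a = 2 := by revert a; decide
      all_goals rw [Pi.one_apply]; omega))⟩ w⁻¹

end Cfsg.Agent.Elv
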