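import Mathlib
import Cfsg.Agent.Elv.Ext
import Cfsg.Agent.Elu.Ten

/-!
Tensor decomposition subgroups of `SL_n(q)`.
-/

set_option autoImplicit false
set_option backward.isDefEq.respectTransparency false

namespace Cfsg.Agent.Elv

open Module Polynomial Conj Spc Elu TensorProduct
open scoped _root_.Classical MatrixGroups

universe u

variable {F : Type u} {U W V : Type*} [Field F] [AddCommGroup U] [Module F U] [AddCommGroup W]
  [Module F W] [AddCommGroup V] [Module F V] {f : End F V} {r n : ℕ} {c : F}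

variable (U W) in
/-- similar to a decomposable map -/
def CT (f : End F V) : Prop :=
  ∃ (a : End F U) (b : End F W), Function.Injective a ∧ Function.Injective b ∧ Sim f (map a b)

theorem CT.smul (h : CT U W f) {w : F} (hw : w ≠ 0) : CT U W (w • f) :=
  let ⟨a, b, h1, h2, h3⟩ := h
  ⟨w • a, b, (smul_right_injective U hw).comp h1, h2, by rw [TensorProduct.map_smul_left]; exact h3.smul w⟩

theorem CT.cases (h : CT U W f) : (∃ b : End F W, Sim f (map (1 : End F U) b)) ∨
    (∃ a : End F U, Sim f (map (1 : End F W) a)) ∨ ∃ (a : End F U) (b : End F W), Function.Injective a ∧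
      Function.Injective b ∧ (∀ c : F, a ≠ c • 1) ∧ (∀ c : F, b ≠ c • 1) ∧ Sim f (map a b) := by
  obtain ⟨a, b, h1, h2, h3⟩ := h
  by_cases x : ∃ c : F, a = c • 1
  · obtain ⟨c, rfl⟩ := x
    exact Or.inl ⟨c • b, by rwa [TensorProduct.map_smul_right, ← TensorProduct.map_smul_left]⟩
  by_cases y : ∃ c : F, b = c • 1
  · obtain ⟨c, rfl⟩ := y
    exact Or.inr (Or.inl ⟨c • a, by
      rw [TensorProduct.map_smul_right, ← TensorProduct.map_smul_left]; exact h3.trans sim_comm⟩)
  exact Or.inr (Or.inr ⟨a, b, h1, h2, not_exists.1 x, not_exists.1 y, h3⟩)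

variable [FiniteDimensional F U] [FiniteDimensional F W] [FiniteDimensional F V]

theorem elus_ten {H : Subgroup (GL (Fin n) F)} {E : (Fin n → F) ≃ₗ[F] U ⊗[F] W}
    (h : ∀ g, g ∈ H ↔ TT E (Matrix.toLin' g.1)) : (∀ (f : End F (Fin n → F)) c, El r f c → Cj H f) ↔
      ∀ (f : End F (Fin n → F)) c, El r f c → CT U W f :=
  forall₃_congr fun f _ hf => (cj_iff _ h (by rw [hf.1]; exact one_ne_zero)).trans
    ⟨fun ⟨g, ⟨a, b, h1⟩, h2⟩ => ⟨a, b, a.injective, b.injective, h2.trans (Sim.symm ⟨E.symm,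
      LinearMap.congr_fun (show E.symm.toLinearMap ∘ₗ map a.toLinearMap b.toLinearMap =
        g ∘ₗ E.symm.toLinearMap from TensorProduct.ext' fun u w => by simp [← h1])⟩)⟩,
    fun ⟨a, b, h1, h2, h3⟩ => ⟨E.symm.conj (map a b), ⟨.ofInjectiveEndo a h1, .ofInjectiveEndo b h2, by simp⟩,
      h3.trans ⟨E.symm, by simp⟩⟩⟩

theorem CT.le (h : CT U W f) (hf : ∀ c : F, f ≠ c • 1) :
    min (finrank F U) (finrank F W) ≤ finrank F (Mo f) :=
  let ⟨_, _, h1, h2, h3⟩ := h
  Sim.finrank_Mo h3 ▸ min_le_mo h1 h2 (Sim.ne_smul h3 hf)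

theorem R1.not_ct {a : F} (h : R1 f a) (d1 : 2 ≤ finrank F U) (d2 : 2 ≤ finrank F W) (d : 2 ≤ finrank F V) :
    ¬ CT U W f := fun e => by
  obtain ⟨w, h1, h2⟩ := h.mo
  have := (e.smul (w := w) (by rintro rfl; exact (h2 0).resolve_right (by omega) (by simp))).le
    fun b => (h2 b).resolve_right (by omega)
  omega

theorem exists_invol (h2 : (2 : F) ≠ 0) {j : ℕ} (hj : j ≤ finrank F W) :
    ∃ g : End F W, g ^ 2 = 1 ∧ finrank F (Mo g) = j := by
  let e : ((Fin (finrank F W - j) → F) × (Fin j → F)) ≃ₗ[F] W := LinearEquiv.ofFinrankEq _ _ (by simp; omega)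
  have s : Sim (LinearMap.prodMap 1 ((-1 : F) • 1)) (e.conj (LinearMap.prodMap 1 ((-1 : F) • 1))) :=
    ⟨e, fun v => by simp only [LinearEquiv.conj_apply_apply, LinearEquiv.symm_apply_apply]⟩
  refine ⟨_, (s.pow 2).one_iff.1 (by rw [prodMap_pow_eq_one, _root_.smul_pow]; simp), ?_⟩
  have := finrank_Fx_add (e.conj (LinearMap.prodMap 1 ((-1 : F) • 1)))
  rw [← Sim.finrank_Fx s, finrank_Fx_prod (fpf_neg h2), finrank_fin_fun] at this
  omega

variable [Fintype F]

theorem ord_le (hr : r.Prime) (h0 : (r : F) ≠ 0) (hi : orderOf (Fintype.card F : ZMod r) ≠ 1) (hc : c ≠ 0)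
    (hf : f ^ r = c • 1) (h : ∀ a : F, f ≠ a • 1) :
    orderOf (Fintype.card F : ZMod r) ≤ nf (Fintype.card F) (ev (AlgebraicClosure F) f) :=
  Nat.le_of_dvd (nf_pos _ hr h0 hi hc hf h)
    (pd_ne hi ▸ (ty_ev _ hr hc hf).dvd (frob_inj _) (pd_pos hr h0))

theorem not_scal (hr : r.Prime) (h0 : (r : F) ≠ 0) (hi : orderOf (Fintype.card F : ZMod r) ≠ 1)
    (hf : El r f 1) (h : finrank F (Mo f) = orderOf (Fintype.card F : ZMod r)) (d : 2 ≤ finrank F U)
    (b : End F W) : ¬ Sim f (map (1 : End F U) b) := fun s => by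
  haveI : Nontrivial U := nontrivial_of_finrank_pos (R := F) (by omega)
  haveI := hf.nontriv
  have h1 := Sim.pow_eq (s.trans sim_comm) hf.2.1
  rw [TensorProduct.map_pow, one_pow, one_smul] at h1
  obtain ⟨c, hc⟩ := scal_of_map h1
  obtain rfl : c = 1 := by
    rw [hc, ← one_smul F (1 : End F U), map_scal, mul_one] at h1
    haveI := (s.trans sim_comm).choose.symm.nontrivial
    obtain ⟨v, hv⟩ := exists_ne (0 : W ⊗[F] U)
    exact smul_left_injective F hv (by simpa using LinearMap.congr_fun h1 v)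
  have h2 := ord_le hr h0 hi one_ne_zero hc fun a e => Sim.ne_smul s hf.2.2 a (by
    simpa [e] using map_scal (U := U) (W := W) 1 a)
  rw [(nf_eq_Mo _ hr h0 hi (by simpa using hc)).2] at h2
  rw [Sim.finrank_Mo s, mo_right] at h
  have := ord_pos h0 hr
  nlinarith

theorem ten {p : ℕ} [Fact p.Prime] [CharP F p] [hr : Fact r.Prime] (d1 : 2 ≤ finrank F U)
    (d2 : finrank F U < finrank F W) {H : Subgroup (GL (Fin n) F)} {E : (Fin n → F) ≃ₗ[F] U ⊗[F] W}
    (hH : ∀ g, g ∈ H ↔ TT E (Matrix.toLin' g.1)) (h : r ∣ H.index) : (∀ x : SL(n, F),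
      (∃ z : F, ((x ^ r : SL(n, F)) : Matrix (Fin n) (Fin n) F) = z • (1 : Matrix (Fin n) (Fin n) F)) →
      (∀ z : F, (x : Matrix (Fin n) (Fin n) F) ≠ z • (1 : Matrix (Fin n) (Fin n) F)) →
      ∃ P : SL(n, F), P⁻¹ * x * P ∈ H.comap Matrix.SpecialLinearGroup.toGL) ↔
    (r = 2 ∧ finrank F U = 2 ∧ Odd (Fintype.card F) ∧
      padicValNat 2 (Fintype.card F - 1) ≤ padicValNat 2 n) := by
  have hd : finrank F (Fin n → F) = n := by simp
  have hn : n = finrank F U * finrank F W := hd.symm.trans (E.finrank_eq.trans finrank_tensorProduct)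
  have n6 : 6 ≤ n := by nlinarith
  let L := AlgebraicClosure F
  refine ⟨fun e => by_contra fun x => ?_, ?_⟩
  swap
  · rintro ⟨rfl, a2, a3, a4⟩
    refine (elus_iff (Or.inr rfl)).2 ((elus_ten hH).2 fun f c hf => ?_)
    have h2 := two_ne a3
    by_cases hc : ∃ w, w ^ 2 = c
    · obtain ⟨w, rfl⟩ := hc
      have w0 : w ≠ 0 := ne_zero_pow two_ne_zero hf.ne
      obtain ⟨h4, j, h5⟩ := even_Mo h2 hf (hd.symm ▸ a4)
      have h6 := finrank_Fx_add (w⁻¹ • f)
      obtain ⟨g, g1, g2⟩ := exists_invol (W := W) h2 (j := j) (by rw [a2] at hn; omega)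
      have g3 : map (1 : End F U) g ^ 2 = 1 := by rw [TensorProduct.map_pow, g1, one_pow, TensorProduct.map_one]
      have g4 := finrank_Fx_add (map (1 : End F U) g)
      rw [finrank_tensorProduct, mo_right, g2] at g4
      simpa [w0] using CT.smul ⟨1, g, Function.injective_id, Function.LeftInverse.injective
        (LinearMap.congr_fun g1), sim_ev1 L (by simpa using h2) h4 g3 (by
          rw [ev_invol _ h2 h4, ev_invol _ h2 g3, mo_right, g2]
          rw [a2] at hn g4 ⊢
          congr 2 <;> omega)⟩ w0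
    let b := finBasisOfFinrankEq F U a2
    obtain ⟨g, g1, g2⟩ : ∃ g : End F U, g (b 0) = b 1 ∧ g (b 1) = c • b 0 :=
      ⟨b.constr F ![b 1, c • b 0], b.constr_basis F _ 0, b.constr_basis F _ 1⟩
    have g3 : g ^ 2 = c • 1 := b.ext fun i => by fin_cases i <;> simp [sq, g1, g2]
    exact ⟨g, 1, fun x y e => smul_right_injective U hf.ne (by
      simpa [← show ∀ v, g (g v) = c • v from LinearMap.congr_fun g3] using congrArg g e),
      Function.injective_id, sim_nonpow Nat.prime_two hc hf.2.1 (by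
        simpa [TensorProduct.map_pow, g3] using map_scal (U := U) (W := W) c 1) E.finrank_eq⟩
  replace e := (elus_ten hH).1 (elus_imp e)
  have R : ∀ (f : End F (Fin n → F)) c a, El r f c → ¬ R1 f a := fun f c a h1 h2 =>
    h2.not_ct d1 (by omega) (by omega) (e f c h1)
  by_cases hp : r = p
  · subst hp
    exact let ⟨f, h1, h2⟩ := exists_tv (V := Fin n → F) (by omega); R f _ _ h1 h2
  have h0 : (r : F) ≠ 0 := natCast_ne_zero_of_ne hr.out hp
  by_cases hi : orderOf (Fintype.card F : ZMod r) = 1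
  swap
  · have i1 := orderOf_le_of_dvd_GL hp ((h.trans H.index_dvd_card).trans
      (Nat.card_congr (Orth.glEquiv _ F).toEquiv).dvd)
    obtain ⟨ζ, hζ⟩ := exists_prim L h0
    have i0 := ord_pos h0 hr.out
    obtain ⟨t1, t2, t3, t4⟩ := shp_spec _ hr.out hi hζ (n - orderOf (Fintype.card F : ZMod r)) 1
    obtain ⟨f, hf, hf'⟩ := exists_el_of_ne _ hr.out hi _ t1 t2 (n := n)
      (by rw [← fx_add_nf (q := Fintype.card F), t3, t4]; omega) (by rw [t4]; omega)
    have t5 := (nf_eq_Mo L hr.out h0 hi (by simpa using hf.2.1)).2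
    rw [hf', t4, mul_one] at t5
    obtain ⟨b, s⟩ | ⟨a, s⟩ | ⟨a, b, a1, b1, a2, b2, s⟩ := (e f 1 hf).cases
    exacts [not_scal hr.out h0 hi hf t5.symm d1 b s, not_scal hr.out h0 hi hf t5.symm (by omega) a s, by
      have h1 := Sim.pow_eq s hf.2.1
      rw [TensorProduct.map_pow, one_smul] at h1
      haveI : Nontrivial W := nontrivial_of_finrank_pos (R := F) (by omega)
      haveI : Nontrivial U := nontrivial_of_finrank_pos (R := F) (by omega)
      obtain ⟨c, hc⟩ := scal_of_map h1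
      have h2 := ord_le hr.out h0 hi (ne_zero_of_det (fun e => (LinearMap.isUnit_iff_isUnit_det a).1
        ((End.isUnit_iff a).2 ⟨a1, LinearMap.injective_iff_surjective.1 a1⟩) |>.ne_zero e) hc a2) hc a2
      have h3 := fx_add_nf (q := Fintype.card F) (ev (AlgebraicClosure F) a)
      have h4 := le_mo b1 a2
      rw [mo_comm, ← Sim.finrank_Mo s] at h4
      rw [card_ev] at h3
      omega]
  obtain ⟨ζ, hζ⟩ := exists_prim_F hr.out (orderOf_eq_one_iff'.1 hi)
  have z0 := hζ.ne_zero hr.out.ne_zero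
  have z1 := hζ.ne_one hr.out.one_lt
  obtain ⟨f, hf, hf'⟩ := exists_el_F L (r := r) (c := 1) (u := ζ) (v := 1) (n := n)
    (ζ ::ₘ ζ⁻¹ ::ₘ Multiset.replicate (n - 2) 1) (by simp; omega)
    (by simp +contextual [Multiset.mem_replicate, hζ.pow_eq_one]) (by simp [z0])
    (by simp) (by simp [Multiset.mem_replicate]; omega) z1
  have h1 : f ^ r = 1 := by simpa using hf.2.1
  have h2 := count_one L h0 h1
  have h3 := finrank_Fx_add f
  rw [hf', ← map_one (algebraMap F L), Multiset.count_map_eq_count' _ _ (algebraMap F L).injective,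
    Multiset.count_cons_of_ne z1.symm, Multiset.count_cons_of_ne (by simpa [eq_comm] using z1),
    Multiset.count_replicate_self] at h2
  have h4 := (e f 1 hf).le hf.2.2
  have a2 : finrank F U = 2 := by omega
  by_cases r2 : r = 2
  · subst r2
    have h5 : (2 : F) ≠ 0 := by simpa using h0
    obtain ⟨f, c, h6, h7⟩ := exists_refl (V := Fin n → F) h5 (by omega) fun e =>
      x ⟨rfl, a2, Nat.odd_iff.2 (odd_card h5), hd ▸ e⟩
    exact R f _ _ h6 h7
  obtain ⟨b, s⟩ | ⟨a, s⟩ | ⟨a, b, a1, b1, a3, b2, s⟩ := (e f 1 hf).cases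
  · have s' := Sim.finrank_Mo (s.smul ζ⁻¹)
    rw [← TensorProduct.map_smul_right, mo_right, a2] at s'
    have h5 := count_one L h0 (f := ζ⁻¹ • f) (by rw [_root_.smul_pow, h1]; simp [hζ.pow_eq_one])
    have h6 := finrank_Fx_add (ζ⁻¹ • f)
    rw [ev_smul', show (1 : L) = algebraMap F L ζ⁻¹ * algebraMap F L ζ by simp [z0],
      Multiset.count_map_eq_count' _ _ (mul_right_injective₀ (by simpa using z0)), hf',
      Multiset.count_map_eq_count' _ _ (algebraMap F L).injective, Multiset.count_cons_self,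
      Multiset.count_cons_of_ne (fun e => r2 ((Nat.prime_dvd_prime_iff_eq hr.out Nat.prime_two).1
        (hζ.dvd_of_pow_eq_one 2 (by rw [sq]; nth_rw 1 [e]; simp [z0])))),
      Multiset.count_replicate, if_neg z1.symm] at h5
    rw [a2] at hn
    omega
  · have := Nat.le_of_dvd two_pos ⟨_, (show 2 = _ by omega).trans ((Sim.finrank_Mo s).trans (mo_right a))⟩
    omega
  · have := lt_mo a1 a3 b2 (by omega)
    rw [← Sim.finrank_Mo s] at this
    omega

end Cfsg.Agent.Elv
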